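/-
The similarity group of a matrix, congruence of matrices up to a scalar (through rectangular
invertible matrices, so that the index types may differ), and the transport of projective quotients.
-/
import Mathlib
import Cfsg.Prelude.Def_LieTypeDatum

set_option autoImplicit false
set_option linter.unusedSimpArgs false
set_option linter.unusedSectionVars false
set_option linter.unusedVariables false

namespace Cfsg.Agent.Lib.GraphInv.Sim

open Matrix
open scoped MatrixGroups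

variable {ι κ μ : Type} [Fintype ι] [DecidableEq ι] [Fintype κ] [DecidableEq κ] [Fintype μ] [DecidableEq μ]
  {F : Type*} [Field F]

theorem gl_mul_inv' (k : GL ι F) : (k : Matrix ι ι F) * ((k⁻¹ : GL ι F) : Matrix ι ι F) = 1 := by
  rw [← Units.val_mul, mul_inv_cancel, Units.val_one]

theorem gl_inv_mul' (k : GL ι F) : ((k⁻¹ : GL ι F) : Matrix ι ι F) * (k : Matrix ι ι F) = 1 := by
  rw [← Units.val_mul, inv_mul_cancel, Units.val_one]

/-- The similitudes of the bilinear form with matrix `A`. -/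
def simG (A : Matrix ι ι F) : Subgroup (GL ι F) where
  carrier := {k | ∃ c : Fˣ, (k : Matrix ι ι F)ᵀ * A * (k : Matrix ι ι F) = (c : F) • A}
  mul_mem' {a b} ha hb := by
    obtain ⟨c, hc⟩ := ha
    obtain ⟨d, hd⟩ := hb
    refine ⟨c * d, ?_⟩
    rw [Units.val_mul, Units.val_mul, Matrix.transpose_mul]
    calc (b : Matrix ι ι F)ᵀ * (a : Matrix ι ι F)ᵀ * A * ((a : Matrix ι ι F) * b)
        = (b : Matrix ι ι F)ᵀ * ((a : Matrix ι ι F)ᵀ * A * a) * b := by simp only [Matrix.mul_assoc]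
      _ = _ := by
        rw [hc, Matrix.mul_smul, Matrix.smul_mul, hd, smul_smul]
  one_mem' := ⟨1, by simp⟩
  inv_mem' {a} ha := by
    obtain ⟨c, hc⟩ := ha
    refine ⟨c⁻¹, ?_⟩
    have h1 : ((a⁻¹ : GL ι F) : Matrix ι ι F)ᵀ * (a : Matrix ι ι F)ᵀ = 1 := by
      rw [← Matrix.transpose_mul, gl_mul_inv', Matrix.transpose_one]
    have h2 := gl_mul_inv' a
    calc ((a⁻¹ : GL ι F) : Matrix ι ι F)ᵀ * A * ((a⁻¹ : GL ι F) : Matrix ι ι F)
        = ((c⁻¹ : Fˣ) : F) • (((a⁻¹ : GL ι F) : Matrix ι ι F)ᵀ * ((c : F) • A) * ((a⁻¹ : GL ι F) : Matrix ι ι F)) := by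
          rw [Matrix.mul_smul, Matrix.smul_mul, smul_smul, Units.inv_mul, one_smul]
      _ = ((c⁻¹ : Fˣ) : F) • ((((a⁻¹ : GL ι F) : Matrix ι ι F)ᵀ * (a : Matrix ι ι F)ᵀ) * A *
            ((a : Matrix ι ι F) * ((a⁻¹ : GL ι F) : Matrix ι ι F))) := by
          rw [← hc]
          simp only [Matrix.mul_assoc]
      _ = _ := by
          rw [h1, h2, Matrix.one_mul, Matrix.mul_one]

theorem mem_simG {A : Matrix ι ι F} {k : GL ι F} :
    k ∈ simG A ↔ ∃ c : Fˣ, (k : Matrix ι ι F)ᵀ * A * (k : Matrix ι ι F) = (c : F) • A := Iff.rfl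

/-- Scalars are similitudes. -/
theorem scalars_le_simG (A : Matrix ι ι F) : Cfsg.Geo.scalars ι F ≤ simG A := by
  intro k hk
  obtain ⟨c, hc⟩ := (Cfsg.Geo.mem_scalars_iff k).1 hk
  refine ⟨c * c, ?_⟩
  rw [hc, Matrix.transpose_smul, Matrix.transpose_one, Units.val_mul]
  simp [smul_smul]

/-- Matrices congruent up to a scalar. -/
def Cong (A : Matrix ι ι F) (B : Matrix κ κ F) : Prop :=
  ∃ (P : Matrix ι κ F) (P' : Matrix κ ι F) (c : Fˣ), P * P' = 1 ∧ P' * P = 1 ∧ Pᵀ * A * P = (c : F) • B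

theorem Cong.refl (A : Matrix ι ι F) : Cong A A := ⟨1, 1, 1, by simp, by simp, by simp⟩

theorem Cong.symm {A : Matrix ι ι F} {B : Matrix κ κ F} (h : Cong A B) : Cong B A := by
  obtain ⟨P, P', c, h1, h2, h3⟩ := h
  refine ⟨P', P, c⁻¹, h2, h1, ?_⟩
  have e1 : P'ᵀ * Pᵀ = 1 := by rw [← Matrix.transpose_mul, h1, Matrix.transpose_one]
  calc P'ᵀ * B * P' = ((c⁻¹ : Fˣ) : F) • (P'ᵀ * ((c : F) • B) * P') := by
        rw [Matrix.mul_smul, Matrix.smul_mul, smul_smul, Units.inv_mul, one_smul]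
    _ = ((c⁻¹ : Fˣ) : F) • ((P'ᵀ * Pᵀ) * A * (P * P')) := by
        rw [← h3]
        simp only [Matrix.mul_assoc]
    _ = _ := by rw [e1, h1, Matrix.one_mul, Matrix.mul_one]

theorem Cong.trans {A : Matrix ι ι F} {B : Matrix κ κ F} {C : Matrix μ μ F} (h : Cong A B) (h' : Cong B C) :
    Cong A C := by
  obtain ⟨P, P', c, h1, h2, h3⟩ := h
  obtain ⟨R, R', d, h4, h5, h6⟩ := h'
  refine ⟨P * R, R' * P', c * d, ?_, ?_, ?_⟩
  · calc P * R * (R' * P') = P * (R * R') * P' := by simp only [Matrix.mul_assoc]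
      _ = 1 := by rw [h4, Matrix.mul_one, h1]
  · calc R' * P' * (P * R) = R' * (P' * P) * R := by simp only [Matrix.mul_assoc]
      _ = 1 := by rw [h2, Matrix.mul_one, h5]
  · rw [Matrix.transpose_mul, Units.val_mul]
    calc Rᵀ * Pᵀ * A * (P * R) = Rᵀ * (Pᵀ * A * P) * R := by simp only [Matrix.mul_assoc]
      _ = _ := by rw [h3, Matrix.mul_smul, Matrix.smul_mul, h6, smul_smul]

/-- Multiples are congruent. -/
theorem cong_smul (A : Matrix ι ι F) (c : Fˣ) : Cong A ((c : F) • A) :=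
  ⟨1, 1, c⁻¹, by simp, by simp, by simp [smul_smul]⟩

/-- The isomorphism of general linear groups attached to an invertible rectangular matrix. -/
def rectEquiv (P : Matrix ι κ F) (P' : Matrix κ ι F) (h1 : P * P' = 1) (h2 : P' * P = 1) :
    GL ι F ≃* GL κ F :=
  Units.mapEquiv
    { toFun := fun M => P' * M * P
      invFun := fun M => P * M * P'
      left_inv := fun M => by
        show P * (P' * M * P) * P' = M
        calc P * (P' * M * P) * P' = (P * P') * M * (P * P') := by simp only [Matrix.mul_assoc]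
          _ = M := by rw [h1, Matrix.one_mul, Matrix.mul_one]
      right_inv := fun M => by
        show P' * (P * M * P') * P = M
        calc P' * (P * M * P') * P = (P' * P) * M * (P' * P) := by simp only [Matrix.mul_assoc]
          _ = M := by rw [h2, Matrix.one_mul, Matrix.mul_one]
      map_mul' := fun M N => by
        show P' * (M * N) * P = P' * M * P * (P' * N * P)
        calc P' * (M * N) * P = P' * M * (P * P') * N * P := by
              rw [h1, Matrix.mul_one]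
              simp only [Matrix.mul_assoc]
          _ = _ := by simp only [Matrix.mul_assoc] }

theorem coe_rectEquiv (P : Matrix ι κ F) (P' : Matrix κ ι F) (h1 : P * P' = 1) (h2 : P' * P = 1) (k : GL ι F) :
    ((rectEquiv P P' h1 h2 k : GL κ F) : Matrix κ κ F) = P' * (k : Matrix ι ι F) * P := rfl

theorem coe_rectEquiv_symm (P : Matrix ι κ F) (P' : Matrix κ ι F) (h1 : P * P' = 1) (h2 : P' * P = 1) (k : GL κ F) :
    (((rectEquiv P P' h1 h2).symm k : GL ι F) : Matrix ι ι F) = P * (k : Matrix κ κ F) * P' := rfl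

theorem scalars_rect (P : Matrix ι κ F) (P' : Matrix κ ι F) (h1 : P * P' = 1) (h2 : P' * P = 1) (k : GL ι F) :
    k ∈ Cfsg.Geo.scalars ι F ↔ rectEquiv P P' h1 h2 k ∈ Cfsg.Geo.scalars κ F := by
  rw [Cfsg.Geo.mem_scalars_iff, Cfsg.Geo.mem_scalars_iff, coe_rectEquiv]
  constructor
  · rintro ⟨c, hc⟩
    refine ⟨c, ?_⟩
    rw [hc, Matrix.mul_smul, Matrix.smul_mul, Matrix.mul_one, h2]
  · rintro ⟨c, hc⟩
    refine ⟨c, ?_⟩
    calc (k : Matrix ι ι F) = (P * P') * (k : Matrix ι ι F) * (P * P') := by rw [h1, Matrix.one_mul, Matrix.mul_one]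
      _ = P * (P' * (k : Matrix ι ι F) * P) * P' := by simp only [Matrix.mul_assoc]
      _ = _ := by rw [hc, Matrix.mul_smul, Matrix.smul_mul, Matrix.mul_one, h1]

theorem simG_rect_aux {A : Matrix ι ι F} {B : Matrix κ κ F} {P : Matrix ι κ F} {P' : Matrix κ ι F} {c : Fˣ}
    (h1 : P * P' = 1) (h2 : P' * P = 1) (h3 : Pᵀ * A * P = (c : F) • B) {k : Matrix ι ι F} {d : Fˣ}
    (hk : kᵀ * A * k = (d : F) • A) : (P' * k * P)ᵀ * B * (P' * k * P) = (d : F) • B := by
  have e1 : P'ᵀ * B * P' = ((c⁻¹ : Fˣ) : F) • A := by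
    have e2 : P'ᵀ * Pᵀ = 1 := by rw [← Matrix.transpose_mul, h1, Matrix.transpose_one]
    calc P'ᵀ * B * P' = ((c⁻¹ : Fˣ) : F) • (P'ᵀ * ((c : F) • B) * P') := by
          rw [Matrix.mul_smul, Matrix.smul_mul, smul_smul, Units.inv_mul, one_smul]
      _ = ((c⁻¹ : Fˣ) : F) • ((P'ᵀ * Pᵀ) * A * (P * P')) := by
          rw [← h3]
          simp only [Matrix.mul_assoc]
      _ = _ := by rw [e2, h1, Matrix.one_mul, Matrix.mul_one]
  rw [Matrix.transpose_mul, Matrix.transpose_mul]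
  calc Pᵀ * (kᵀ * P'ᵀ) * B * (P' * k * P) = Pᵀ * (kᵀ * (P'ᵀ * B * P') * k) * P := by
        simp only [Matrix.mul_assoc]
    _ = _ := by
        rw [e1, Matrix.mul_smul, Matrix.smul_mul, hk]
        simp only [Matrix.mul_smul, Matrix.smul_mul, h3, smul_smul]
        rw [mul_assoc, mul_comm, mul_assoc, mul_comm (c : F), Units.inv_mul, mul_one]

theorem simG_rect {A : Matrix ι ι F} {B : Matrix κ κ F} {P : Matrix ι κ F} {P' : Matrix κ ι F} {c : Fˣ}
    (h1 : P * P' = 1) (h2 : P' * P = 1) (h3 : Pᵀ * A * P = (c : F) • B) (k : GL ι F) :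
    k ∈ simG A ↔ rectEquiv P P' h1 h2 k ∈ simG B := by
  rw [mem_simG, mem_simG, coe_rectEquiv]
  constructor
  · rintro ⟨d, hd⟩
    exact ⟨d, simG_rect_aux h1 h2 h3 hd⟩
  · rintro ⟨d, hd⟩
    refine ⟨d, ?_⟩
    have h4 : P'ᵀ * B * P' = ((c⁻¹ : Fˣ) : F) • A := by
      have e2 : P'ᵀ * Pᵀ = 1 := by rw [← Matrix.transpose_mul, h1, Matrix.transpose_one]
      calc P'ᵀ * B * P' = ((c⁻¹ : Fˣ) : F) • (P'ᵀ * ((c : F) • B) * P') := by
            rw [Matrix.mul_smul, Matrix.smul_mul, smul_smul, Units.inv_mul, one_smul]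
        _ = ((c⁻¹ : Fˣ) : F) • ((P'ᵀ * Pᵀ) * A * (P * P')) := by
            rw [← h3]
            simp only [Matrix.mul_assoc]
        _ = _ := by rw [e2, h1, Matrix.one_mul, Matrix.mul_one]
    have := simG_rect_aux (A := B) (B := A) (P := P') (P' := P) (c := c⁻¹) h2 h1 h4 hd
    have e3 : P * (P' * (k : Matrix ι ι F) * P) * P' = k := by
      calc P * (P' * (k : Matrix ι ι F) * P) * P' = (P * P') * (k : Matrix ι ι F) * (P * P') := by simp only [Matrix.mul_assoc]
        _ = (k : Matrix ι ι F) := by rw [h1, Matrix.one_mul, Matrix.mul_one]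
    rwa [e3] at this

/-- Transport of projective quotients. -/
noncomputable def projCongr (H : Subgroup (GL ι F)) (H' : Subgroup (GL κ F)) (e : GL ι F ≃* GL κ F)
    (hH : ∀ k, k ∈ H ↔ e k ∈ H') (hs : ∀ k, k ∈ Cfsg.Geo.scalars ι F ↔ e k ∈ Cfsg.Geo.scalars κ F) :
    Cfsg.projQuot H ≃* Cfsg.projQuot H' :=
  QuotientGroup.congr _ _
    { toFun := fun k => ⟨e k.1, (hH k.1).1 k.2⟩
      invFun := fun k => ⟨e.symm k.1, (hH _).2 (by simpa using k.2)⟩
      left_inv := fun k => Subtype.ext (e.symm_apply_apply k.1)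
      right_inv := fun k => Subtype.ext (e.apply_symm_apply k.1)
      map_mul' := fun a b => Subtype.ext (map_mul e a.1 b.1) }
    (by
      ext k
      constructor
      · rintro ⟨a, ha, rfl⟩
        exact (hs a.1).1 ha
      · intro hk
        refine ⟨⟨e.symm k.1, (hH _).2 (by simpa using k.2)⟩, ?_, Subtype.ext (e.apply_symm_apply k.1)⟩
        show e.symm k.1 ∈ Cfsg.Geo.scalars ι F
        rw [hs]
        simpa using Subgroup.mem_subgroupOf.1 hk)

theorem Cong.proj {A : Matrix ι ι F} {B : Matrix κ κ F} (h : Cong A B) :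
    Nonempty (Cfsg.projQuot (simG A) ≃* Cfsg.projQuot (simG B)) := by
  obtain ⟨P, P', c, h1, h2, h3⟩ := h
  exact ⟨projCongr _ _ (rectEquiv P P' h1 h2) (simG_rect h1 h2 h3) (scalars_rect P P' h1 h2)⟩

/-- Equal subgroups give isomorphic projective quotients. -/
theorem proj_of_eq {H H' : Subgroup (GL ι F)} (h : H = H') :
    Nonempty (Cfsg.projQuot H ≃* Cfsg.projQuot H') := by
  subst h
  exact ⟨MulEquiv.refl _⟩

/-! ### Bilinear identities -/

theorem dot_conj (k A : Matrix ι ι F) (u v : ι → F) :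
    (k *ᵥ u) ⬝ᵥ (A *ᵥ (k *ᵥ v)) = u ⬝ᵥ ((kᵀ * A * k) *ᵥ v) := by
  rw [← Matrix.mulVec_mulVec, ← Matrix.mulVec_mulVec, Matrix.dotProduct_mulVec u, Matrix.vecMul_transpose]

theorem eq_of_dot {M N : Matrix ι ι F} (h : ∀ u v : ι → F, u ⬝ᵥ (M *ᵥ v) = u ⬝ᵥ (N *ᵥ v)) : M = N := by
  refine Matrix.ext fun i j => ?_
  have := h (Pi.single i 1) (Pi.single j 1)
  simpa using this

theorem eq_of_dot_rect {M N : Matrix ι κ F} (h : ∀ (u : ι → F) (v : κ → F), u ⬝ᵥ (M *ᵥ v) = u ⬝ᵥ (N *ᵥ v)) : M = N := by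
  refine Matrix.ext fun i j => ?_
  have := h (Pi.single i 1) (Pi.single j 1)
  simpa using this

/-- A symmetric matrix with vanishing quadratic form vanishes (characteristic not two). -/
theorem eq_zero_of_quad {M : Matrix ι ι F} (h2 : (2 : F) ≠ 0) (hS : Mᵀ = M) (h : ∀ v : ι → F, v ⬝ᵥ (M *ᵥ v) = 0) :
    M = 0 := by
  have hsym : ∀ x y : ι → F, y ⬝ᵥ (M *ᵥ x) = x ⬝ᵥ (M *ᵥ y) := by
    intro x y
    rw [Matrix.dotProduct_mulVec, dotProduct_comm, ← Matrix.mulVec_transpose, hS]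
  refine eq_of_dot fun u v => ?_
  have h1 := h (u + v)
  rw [Matrix.mulVec_add, dotProduct_add, add_dotProduct, add_dotProduct, h u, h v, hsym u v] at h1
  simp only [zero_add, add_zero] at h1
  have h3 : (2 : F) * (u ⬝ᵥ (M *ᵥ v)) = 0 := by rw [two_mul]; exact h1
  simpa using (mul_eq_zero.1 h3).resolve_left h2

/-- Quadratic similitudes are similitudes of the polar matrix. -/
theorem simG_eq_quadSim {Q : (ι → F) → F} {G : Matrix ι ι F} (h2 : (2 : F) ≠ 0) (hS : Gᵀ = G)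
    (hQ : ∀ v, v ⬝ᵥ (G *ᵥ v) = 2 * Q v) : simG G = Cfsg.Geo.quadSimilarityGroup (F := F) Q := by
  ext k
  show (∃ c : Fˣ, (k : Matrix ι ι F)ᵀ * G * (k : Matrix ι ι F) = (c : F) • G) ↔
    ∃ c : Fˣ, ∀ v, Q ((k : Matrix ι ι F) *ᵥ v) = (c : F) * Q v
  refine exists_congr fun c => ?_
  constructor
  · intro h v
    have h1 := hQ ((k : Matrix ι ι F) *ᵥ v)
    rw [dot_conj, h, Matrix.smul_mulVec, dotProduct_smul, hQ, smul_eq_mul] at h1
    have h3 : (2 : F) * (Q ((k : Matrix ι ι F) *ᵥ v) - (c : F) * Q v) = 0 := by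
      linear_combination -h1
    have := (mul_eq_zero.1 h3).resolve_left h2
    exact sub_eq_zero.1 this
  · intro h
    have hM : (k : Matrix ι ι F)ᵀ * G * (k : Matrix ι ι F) - (c : F) • G = 0 := by
      refine eq_zero_of_quad h2 ?_ ?_
      · rw [Matrix.transpose_sub, Matrix.transpose_mul, Matrix.transpose_mul, Matrix.transpose_transpose, hS,
          Matrix.transpose_smul, hS, Matrix.mul_assoc]
      · intro v
        rw [Matrix.sub_mulVec, dotProduct_sub, ← dot_conj, hQ, h, Matrix.smul_mulVec, dotProduct_smul, hQ, smul_eq_mul]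
        ring
    exact sub_eq_zero.1 hM

/-- The conformal symplectic group is a similarity group. -/
theorem simG_J (m : ℕ) : simG (Matrix.J (Fin m) F) = Cfsg.GSp m F := by
  ext k
  show (∃ c : Fˣ, (k : Matrix (Fin m ⊕ Fin m) (Fin m ⊕ Fin m) F)ᵀ * Matrix.J (Fin m) F * (k : Matrix (Fin m ⊕ Fin m) (Fin m ⊕ Fin m) F) = (c : F) • Matrix.J (Fin m) F) ↔
    ∃ c : Fˣ, ∀ u v, Cfsg.sympForm m F ((k : Matrix (Fin m ⊕ Fin m) (Fin m ⊕ Fin m) F) *ᵥ u) ((k : Matrix (Fin m ⊕ Fin m) (Fin m ⊕ Fin m) F) *ᵥ v) = (c : F) * Cfsg.sympForm m F u v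
  refine exists_congr fun c => ?_
  unfold Cfsg.sympForm
  constructor
  · intro h u v
    rw [dot_conj, h, Matrix.smul_mulVec, dotProduct_smul, smul_eq_mul]
  · intro h
    refine eq_of_dot fun u v => ?_
    rw [← dot_conj, h, Matrix.smul_mulVec, dotProduct_smul, smul_eq_mul]

/-- Two surjections with the same kernel have isomorphic images. -/
theorem iso_of_same_ker {D X Y : Type*} [Group D] [Group X] [Group Y] (f : D →* X) (g : D →* Y)
    (hf : Function.Surjective f) (hg : Function.Surjective g) (h : f.ker = g.ker) : Nonempty (X ≃* Y) :=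
  ⟨(QuotientGroup.quotientKerEquivOfSurjective f hf).symm.trans
    ((QuotientGroup.quotientMulEquivOfEq h).trans (QuotientGroup.quotientKerEquivOfSurjective g hg))⟩

end Cfsg.Agent.Lib.GraphInv.Sim
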