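/-
Classification of the non-degenerate symmetric and alternating matrices up to congruence and scalars
over finite fields of odd order; the model matrices and their similarity groups.
-/
import Mathlib
import Cfsg.Agent.Lib.GraphInv.Sim
import Cfsg.Agent.Lib.Witt.SympModel
import Cfsg.Agent.Lib.QuadDisc.Classify

set_option autoImplicit false
set_option linter.unusedSimpArgs false
set_option linter.unusedSectionVars false
set_option linter.unusedVariables false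

namespace Cfsg.Agent.Lib.GraphInv.Forms

open Matrix Module
open scoped MatrixGroups
open Cfsg.Agent.Lib.GraphInv.Sim

variable {ι κ : Type} [Fintype ι] [DecidableEq ι] [Fintype κ] [DecidableEq κ] {F : Type*} [Field F]

theorem dot_conj_rect (P : Matrix ι κ F) (A : Matrix ι ι F) (u v : κ → F) :
    (P *ᵥ u) ⬝ᵥ (A *ᵥ (P *ᵥ v)) = u ⬝ᵥ ((Pᵀ * A * P) *ᵥ v) := by
  rw [← Matrix.mulVec_mulVec, ← Matrix.mulVec_mulVec, Matrix.dotProduct_mulVec u, Matrix.vecMul_transpose]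

theorem cong_of_isometry {A : Matrix ι ι F} {B : Matrix κ κ F} (ψ : (κ → F) ≃ₗ[F] (ι → F))
    (h : ∀ x y, (ψ x) ⬝ᵥ (A *ᵥ ψ y) = x ⬝ᵥ (B *ᵥ y)) : Cong A B := by
  let P : Matrix ι κ F := LinearMap.toMatrix' (ψ : (κ → F) →ₗ[F] (ι → F))
  let P' : Matrix κ ι F := LinearMap.toMatrix' (ψ.symm : (ι → F) →ₗ[F] (κ → F))
  have hP : ∀ x, P *ᵥ x = ψ x := fun x => LinearMap.toMatrix'_mulVec _ x
  have hP' : ∀ x, P' *ᵥ x = ψ.symm x := fun x => LinearMap.toMatrix'_mulVec _ x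
  refine ⟨P, P', 1, ?_, ?_, ?_⟩
  · apply Matrix.mulVec_injective
    funext x
    rw [← Matrix.mulVec_mulVec, hP', hP, Matrix.one_mulVec]
    simp
  · apply Matrix.mulVec_injective
    funext x
    rw [← Matrix.mulVec_mulVec, hP, hP', Matrix.one_mulVec]
    simp
  · rw [Units.val_one, one_smul]
    refine eq_of_dot fun u v => ?_
    rw [← dot_conj_rect, hP, hP, h]

theorem bf_nondeg {A : Matrix ι ι F} (h : A.det ≠ 0) : (Matrix.toBilin' A).Nondegenerate :=
  LinearMap.BilinForm.nondegenerate_toBilin'_iff_det_ne_zero.2 h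

theorem bf_symm {A : Matrix ι ι F} (h : Aᵀ = A) : (Matrix.toBilin' A).IsSymm := by
  refine ⟨fun x y => ?_⟩
  show (Matrix.toBilin' A) x y = (Matrix.toBilin' A) y x
  rw [Matrix.toBilin'_apply', Matrix.toBilin'_apply', Matrix.dotProduct_mulVec, dotProduct_comm,
    ← Matrix.mulVec_transpose, h]

theorem bf_alt {A : Matrix ι ι F} (h : ∀ x : ι → F, x ⬝ᵥ (A *ᵥ x) = 0) : (Matrix.toBilin' A).IsAlt := by
  intro x
  rw [Matrix.toBilin'_apply']
  exact h x

theorem finrank_fun : finrank F (ι → F) = Fintype.card ι := Module.finrank_fintype_fun_eq_card F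

theorem gram_det_finBasis (A : Matrix ι ι F) :
    ∃ u : F, u ≠ 0 ∧ (LinearMap.BilinForm.toMatrix (finBasis F (ι → F)) (Matrix.toBilin' A)).det = u * u * A.det := by
  obtain ⟨u, hu, h⟩ := Cfsg.Agent.Lib.QuadDisc.Basic.det_gram_change (Pi.basisFun F ι) (finBasis F (ι → F))
    (Matrix.toBilin' A)
  refine ⟨u, hu, ?_⟩
  rw [h]
  congr 2
  ext i j
  simp [LinearMap.BilinForm.toMatrix_apply, Matrix.toBilin'_apply']

section finite

variable [Fintype F]

/-- Symmetric matrices over a finite field of odd order are classified by the discriminant. -/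
theorem cong_of_disc (h2 : (2 : F) ≠ 0) {A : Matrix ι ι F} {B : Matrix κ κ F} (hA : Aᵀ = A) (hB : Bᵀ = B)
    (hAd : A.det ≠ 0) (hBd : B.det ≠ 0) (hc : Fintype.card ι = Fintype.card κ)
    (hsq : IsSquare (A.det * B.det)) : Cong A B := by
  obtain ⟨u, hu, hdu⟩ := gram_det_finBasis A
  obtain ⟨w, hw, hdw⟩ := gram_det_finBasis B
  obtain ⟨ψ, hψ⟩ := Cfsg.Agent.Lib.QuadDisc.Classify.exists_isometry h2 (Matrix.toBilin' B) (Matrix.toBilin' A)
    (bf_nondeg hBd) (bf_nondeg hAd) (bf_symm hB) (bf_symm hA) (by rw [finrank_fun, finrank_fun, hc]) (by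
      rw [hdu, hdw]
      obtain ⟨r, hr⟩ := hsq
      refine ⟨u * w * r, ?_⟩
      calc w * w * B.det * (u * u * A.det) = u * u * (w * w) * (A.det * B.det) := by ring
        _ = _ := by rw [hr]; ring)
  refine cong_of_isometry ψ fun x y => ?_
  have := hψ x y
  rwa [Matrix.toBilin'_apply', Matrix.toBilin'_apply'] at this

end finite

/-- Non-degenerate alternating matrices are congruent to the standard one. -/
theorem cong_J {A : Matrix ι ι F} (hA : ∀ x : ι → F, x ⬝ᵥ (A *ᵥ x) = 0) (hd : A.det ≠ 0) {m : ℕ}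
    (hc : Fintype.card ι = 2 * m) : Cong A (Matrix.J (Fin m) F) := by
  obtain ⟨ψ, hψ⟩ := Cfsg.Agent.Lib.Witt.SympModel.exists_model (Matrix.toBilin' A) (bf_alt hA) (bf_nondeg hd) m
    (by rw [finrank_fun, hc])
  refine cong_of_isometry ψ fun x y => ?_
  have := hψ x y
  rwa [Matrix.toBilin'_apply'] at this

/-- Determinants of matrices congruent up to a scalar. -/
theorem cong_det_rel {A : Matrix ι ι F} {B : Matrix κ κ F} (h : Cong A B) :
    ∃ (u : F) (c : Fˣ), u * u * A.det = (c : F) ^ Fintype.card κ * B.det := by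
  obtain ⟨P, P', c, h1, h2, h3⟩ := h
  have hcard : Fintype.card ι = Fintype.card κ := Matrix.square_of_invertible P P' h1 h2
  let e : ι ≃ κ := Fintype.equivOfCardEq hcard
  let R : Matrix ι ι F := P.submatrix id e
  have hR : Rᵀ * A * R = (Pᵀ * A * P).submatrix e e := by
    have e1 : Rᵀ = Pᵀ.submatrix e id := rfl
    rw [e1]
    have e2 : R = P.submatrix id e := rfl
    rw [e2]
    ext i j
    simp [Matrix.mul_apply, Matrix.submatrix_apply]
  refine ⟨R.det, c, ?_⟩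
  have h4 := congrArg Matrix.det hR
  rw [Matrix.det_mul, Matrix.det_mul, Matrix.det_transpose, Matrix.det_submatrix_equiv_self, h3, Matrix.det_smul] at h4
  rw [← h4]
  ring

theorem cong_isSquare {A : Matrix ι ι F} {B : Matrix κ κ F} (h : Cong A B) (hn : Even (Fintype.card κ)) :
    IsSquare (A.det * B.det) := by
  obtain ⟨u, c, hu⟩ := cong_det_rel h
  obtain ⟨r, hr⟩ := hn
  refine ⟨u * A.det / (c : F) ^ r, ?_⟩
  have hc : ((c : F) ^ r) ≠ 0 := pow_ne_zero _ c.ne_zero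
  field_simp
  rw [hr, pow_add] at hu
  linear_combination (-A.det) * hu

theorem cong_skew {A : Matrix ι ι F} {B : Matrix κ κ F} (h : Cong A B) (hA : Aᵀ = -A) : Bᵀ = -B := by
  obtain ⟨P, P', c, h1, h2, h3⟩ := h
  have h4 : (c : F) • Bᵀ = (c : F) • (-B) := by
    rw [← Matrix.transpose_smul, ← h3, Matrix.transpose_mul, Matrix.transpose_mul, Matrix.transpose_transpose, hA,
      smul_neg, ← h3]
    simp [Matrix.mul_assoc]
  exact smul_right_injective _ c.ne_zero h4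

theorem cong_symmetric {A : Matrix ι ι F} {B : Matrix κ κ F} (h : Cong A B) (hA : Aᵀ = A) : Bᵀ = B := by
  obtain ⟨P, P', c, h1, h2, h3⟩ := h
  have h4 : (c : F) • Bᵀ = (c : F) • B := by
    rw [← Matrix.transpose_smul, ← h3, Matrix.transpose_mul, Matrix.transpose_mul, Matrix.transpose_transpose, hA,
      Matrix.mul_assoc]
  exact smul_right_injective _ c.ne_zero h4

theorem cong_alt {A : Matrix ι ι F} {B : Matrix κ κ F} (h : Cong A B) (hA : ∀ x : ι → F, x ⬝ᵥ (A *ᵥ x) = 0)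
    (x : κ → F) : x ⬝ᵥ (B *ᵥ x) = 0 := by
  obtain ⟨P, P', c, h1, h2, h3⟩ := h
  have h4 := hA (P *ᵥ x)
  rw [dot_conj_rect, h3, Matrix.smul_mulVec, dotProduct_smul, smul_eq_mul] at h4
  exact (mul_eq_zero.1 h4).resolve_left c.ne_zero

/-! ### Models -/

/-- Polar matrix of the hyperbolic form. -/
abbrev Gp (m : ℕ) (F : Type*) [Field F] : Matrix (Fin m ⊕ Fin m) (Fin m ⊕ Fin m) F :=
  fromBlocks (0 : Matrix (Fin m) (Fin m) F) 1 1 0

/-- Polar matrix of the minus form with binary part `z₁² - ν z₂²`. -/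
noncomputable abbrev Gm (m : ℕ) (F : Type*) [Field F] (ν : F) :
    Matrix ((Fin m ⊕ Fin m) ⊕ Fin 2) ((Fin m ⊕ Fin m) ⊕ Fin 2) F :=
  fromBlocks (Gp m F) 0 0 (Matrix.diagonal ![2, -2 * ν])

/-- Polar matrix of the odd dimensional form. -/
noncomputable abbrev Go (m : ℕ) (F : Type*) [Field F] :
    Matrix (Unit ⊕ (Fin m ⊕ Fin m)) (Unit ⊕ (Fin m ⊕ Fin m)) F :=
  fromBlocks (Matrix.diagonal fun _ => 2) 0 0 (Gp m F)

theorem Gp_symm (m : ℕ) : (Gp m F)ᵀ = Gp m F := by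
  rw [Matrix.fromBlocks_transpose]
  simp

theorem Gm_symm (m : ℕ) (ν : F) : (Gm m F ν)ᵀ = Gm m F ν := by
  rw [Matrix.fromBlocks_transpose, Gp_symm]
  simp

theorem Go_symm (m : ℕ) : (Go m F)ᵀ = Go m F := by
  rw [Matrix.fromBlocks_transpose, Gp_symm]
  simp

theorem det_Gp (m : ℕ) : (Gp m F).det = (-1) ^ m := by
  have := Cfsg.Agent.Lib.Orth.Gram.det_hyp (F := F) (Fin m)
  simpa using this

theorem det_Gm (m : ℕ) (ν : F) : (Gm m F ν).det = (-1) ^ m * (-4 * ν) := by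
  rw [Matrix.det_fromBlocks_zero₂₁, det_Gp, Matrix.det_diagonal]
  congr 1
  simp [Fin.prod_univ_two]
  ring

theorem det_Go (m : ℕ) : (Go m F).det = 2 * (-1) ^ m := by
  rw [Matrix.det_fromBlocks_zero₂₁, det_Gp, Matrix.det_diagonal]
  simp

theorem dot_blocks (D₁ : Matrix ι ι F) (D₂ : Matrix κ κ F) (x y : ι ⊕ κ → F) :
    x ⬝ᵥ (fromBlocks D₁ 0 0 D₂ *ᵥ y) =
      (x ∘ Sum.inl) ⬝ᵥ (D₁ *ᵥ (y ∘ Sum.inl)) + (x ∘ Sum.inr) ⬝ᵥ (D₂ *ᵥ (y ∘ Sum.inr)) := by
  rw [Matrix.fromBlocks_mulVec]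
  simp [dotProduct, Fintype.sum_sum_type]

theorem quad_Gp (m : ℕ) (v : Fin m ⊕ Fin m → F) : v ⬝ᵥ (Gp m F *ᵥ v) = 2 * Cfsg.quadFormPlus m F v := by
  rw [Matrix.fromBlocks_mulVec]
  unfold Cfsg.quadFormPlus
  simp only [dotProduct, Fintype.sum_sum_type, Matrix.zero_mulVec, Matrix.one_mulVec, zero_add, add_zero,
    Sum.elim_inl, Sum.elim_inr, Function.comp, two_mul]
  congr 1
  exact Finset.sum_congr rfl fun i _ => mul_comm _ _

theorem quad_Gm (m : ℕ) (ν : F) (v : (Fin m ⊕ Fin m) ⊕ Fin 2 → F) :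
    v ⬝ᵥ (Gm m F ν *ᵥ v) = 2 * Cfsg.quadFormMinus m F 0 (-ν) v := by
  rw [dot_blocks, quad_Gp]
  unfold Cfsg.quadFormMinus Cfsg.quadFormPlus
  simp only [dotProduct, Matrix.mulVec_diagonal, Fin.sum_univ_two, Function.comp]
  simp [Matrix.mulVec, dotProduct, Matrix.diagonal_apply, Fin.sum_univ_two]
  ring

theorem quad_Go (m : ℕ) (v : Unit ⊕ (Fin m ⊕ Fin m) → F) :
    v ⬝ᵥ (Go m F *ᵥ v) = 2 * Cfsg.quadFormOdd m F v := by
  rw [dot_blocks, quad_Gp]
  unfold Cfsg.quadFormOdd Cfsg.quadFormPlus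
  simp [dotProduct, Matrix.mulVec, Matrix.diagonal_apply]
  ring

theorem proj_Gp (h2 : (2 : F) ≠ 0) (m : ℕ) :
    Nonempty (Cfsg.projQuot (simG (Gp m F)) ≃* Cfsg.PGO F (Cfsg.quadFormPlus m F)) :=
  proj_of_eq (simG_eq_quadSim h2 (Gp_symm m) (quad_Gp m))

theorem proj_Gm (h2 : (2 : F) ≠ 0) (m : ℕ) (ν : F) :
    Nonempty (Cfsg.projQuot (simG (Gm m F ν)) ≃* Cfsg.PGO F (Cfsg.quadFormMinus m F 0 (-ν))) :=
  proj_of_eq (simG_eq_quadSim h2 (Gm_symm m ν) (quad_Gm m ν))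

theorem proj_Go (h2 : (2 : F) ≠ 0) (m : ℕ) :
    Nonempty (Cfsg.projQuot (simG (Go m F)) ≃* Cfsg.PGO F (Cfsg.quadFormOdd m F)) :=
  proj_of_eq (simG_eq_quadSim h2 (Go_symm m) (quad_Go m))

theorem proj_J (m : ℕ) :
    Nonempty (Cfsg.projQuot (simG (Matrix.J (Fin m) F)) ≃* Cfsg.PGSp m F) :=
  proj_of_eq (simG_J m)

/-- The binary form of the minus model is anisotropic. -/
theorem aniso {ν : F} (hν : ¬ IsSquare ν) (z₁ z₂ : F) (h : z₁ ^ 2 + 0 * z₁ * z₂ + (-ν) * z₂ ^ 2 = 0) :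
    z₁ = 0 ∧ z₂ = 0 := by
  by_cases h0 : z₂ = 0
  · subst h0
    refine ⟨?_, rfl⟩
    simpa using h
  · exfalso
    apply hν
    refine ⟨z₁ / z₂, ?_⟩
    field_simp
    linear_combination -h

section finite

variable [Fintype F]

theorem det_J_ne (m : ℕ) : (Matrix.J (Fin m) F).det ≠ 0 := by
  have h := Matrix.J_det_mul_J_det (Fin m) F
  intro h0
  rw [h0, zero_mul] at h
  exact zero_ne_one h

/-- Odd dimension: one class. -/
theorem cong_Go (h2 : (2 : F) ≠ 0) {A : Matrix ι ι F} (hA : Aᵀ = A) (hd : A.det ≠ 0) {m : ℕ}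
    (hc : Fintype.card ι = 2 * m + 1) : Cong A (Go m F) := by
  have hGd : (Go m F).det ≠ 0 := by
    rw [det_Go]
    exact mul_ne_zero h2 (pow_ne_zero _ (by simp))
  let c : F := A.det * (Go m F).det
  have hc0 : c ≠ 0 := mul_ne_zero hd hGd
  have h1 : Cong ((Units.mk0 c hc0 : Fˣ) • A) (Go m F) := by
    refine cong_of_disc h2 ?_ (Go_symm m) ?_ hGd ?_ ?_
    · rw [Matrix.transpose_smul, hA]
    · rw [Units.smul_def, Matrix.det_smul]
      exact mul_ne_zero (pow_ne_zero _ hc0) hd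
    · simp [hc]
      omega
    · rw [Units.smul_def, Matrix.det_smul, hc]
      refine ⟨c ^ (m + 1), ?_⟩
      simp only [Units.val_mk0]
      show c ^ (2 * m + 1) * A.det * (Go m F).det = _
      have : c ^ (2 * m + 1) * A.det * (Go m F).det = c ^ (2 * m + 1) * c := by simp only [c]; ring
      rw [this]
      ring
  exact (cong_smul A _).trans h1

/-- Even dimension, square case. -/
theorem cong_Gp (h2 : (2 : F) ≠ 0) {A : Matrix ι ι F} (hA : Aᵀ = A) (hd : A.det ≠ 0) {m : ℕ}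
    (hc : Fintype.card ι = 2 * m) (hsq : IsSquare (A.det * (-1) ^ m)) : Cong A (Gp m F) := by
  refine cong_of_disc h2 hA (Gp_symm m) hd ?_ ?_ ?_
  · rw [det_Gp]
    exact pow_ne_zero _ (by simp)
  · simp [hc]
    omega
  · rwa [det_Gp]

/-- Even dimension, non-square case. -/
theorem cong_Gm (h2 : (2 : F) ≠ 0) {A : Matrix ι ι F} (hA : Aᵀ = A) (hd : A.det ≠ 0) {m : ℕ}
    (hc : Fintype.card ι = 2 * m + 2) {ν : F} (hν : ¬ IsSquare ν)
    (hsq : ¬ IsSquare (A.det * (-1) ^ (m + 1))) : Cong A (Gm m F ν) := by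
  classical
  have hν0 : ν ≠ 0 := by
    rintro rfl
    exact hν ⟨0, by simp⟩
  have h4 : (4 : F) ≠ 0 := by
    have : (4 : F) = 2 * 2 := by norm_num
    rw [this]
    exact mul_ne_zero h2 h2
  refine cong_of_disc h2 hA (Gm_symm m ν) hd ?_ ?_ ?_
  · rw [det_Gm]
    refine mul_ne_zero (pow_ne_zero _ (by simp)) (mul_ne_zero (neg_ne_zero.2 h4) hν0)
  · simp [hc]
    omega
  · rw [det_Gm]
    have h1 : IsSquare (A.det * (-1) ^ (m + 1) * ν) := by
      by_contra hns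
      have hne : ∀ x : F, x ≠ 0 → ¬ IsSquare x → ∀ y : F, y ≠ 0 → ¬ IsSquare y → IsSquare (x * y) := by
        intro x hx hxs y hy hys
        have hxc := quadraticChar_neg_one_iff_not_isSquare.2 hxs
        have hyc := quadraticChar_neg_one_iff_not_isSquare.2 hys
        refine (quadraticChar_one_iff_isSquare (mul_ne_zero hx hy)).1 ?_
        rw [map_mul, hxc, hyc]
        norm_num
      exact hns (hne _ (mul_ne_zero hd (pow_ne_zero _ (by simp))) hsq _ hν0 hν)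
    obtain ⟨r, hr⟩ := h1
    refine ⟨2 * r, ?_⟩
    have e : A.det * ((-1) ^ m * (-4 * ν)) = 4 * (A.det * (-1) ^ (m + 1) * ν) := by ring
    rw [e, hr]
    ring

/-- The plus and minus models are not congruent. -/
theorem not_cong_pm {m : ℕ} {ν : F} (hν : ¬ IsSquare ν) (h2 : (2 : F) ≠ 0) : ¬ Cong (Gp (m + 1) F) (Gm m F ν) := by
  intro h
  have h1 := cong_isSquare h ⟨m + 1, by simp only [Fintype.card_sum, Fintype.card_fin]; ring⟩
  rw [det_Gp, det_Gm] at h1
  apply hν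
  obtain ⟨r, hr⟩ := h1
  have hsq : ((-1 : F) ^ m) * ((-1 : F) ^ m) = 1 := by
    rw [← mul_pow]
    simp
  refine ⟨r / 2, ?_⟩
  field_simp
  have : (-1 : F) ^ (m + 1) * ((-1) ^ m * (-4 * ν)) = 4 * ν * ((-1 : F) ^ m * (-1) ^ m) := by ring
  rw [this, hsq] at hr
  linear_combination hr

end finite

theorem det_ne_of_cong {A : Matrix ι ι F} {B : Matrix κ κ F} (h : Cong A B) (hA : A.det ≠ 0) : B.det ≠ 0 := by
  obtain ⟨P, P', c, h1, h2, h3⟩ := h
  have hcard : Fintype.card ι = Fintype.card κ := Matrix.square_of_invertible P P' h1 h2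
  intro h0
  obtain ⟨u, c', hu⟩ := cong_det_rel (show Cong B A from Cong.symm ⟨P, P', c, h1, h2, h3⟩)
  rw [h0, mul_zero] at hu
  have : (c' : F) ^ Fintype.card ι * A.det ≠ 0 := mul_ne_zero (pow_ne_zero _ c'.ne_zero) hA
  exact this hu.symm

/-- Skew and symmetric matrices are not congruent. -/
theorem not_cong_skew_symm {A : Matrix ι ι F} {B : Matrix κ κ F} (h2 : (2 : F) ≠ 0) [Nonempty κ] (hA : Aᵀ = -A)
    (hB : Bᵀ = B) (hd : B.det ≠ 0) : ¬ Cong A B := by
  intro h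
  have h1 := cong_skew h hA
  rw [hB] at h1
  have h3 : (2 : F) • B = 0 := by
    rw [two_smul]
    nth_rewrite 1 [h1]
    simp
  have h4 : B = 0 := (smul_eq_zero.1 h3).resolve_left h2
  subst h4
  apply hd
  simp [Matrix.det_zero]

end Cfsg.Agent.Lib.GraphInv.Forms
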