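/-
Similarity groups in characteristic two: normalisation, the symplectic model, the centraliser of a
transvection.
-/
import Mathlib
import Cfsg.Agent.Lib.GraphInv.Forms

set_option autoImplicit false
set_option linter.unusedSimpArgs false
set_option linter.unusedSectionVars false
set_option linter.unusedVariables false

namespace Cfsg.Agent.Lib.GraphInv.Char2A

open Matrix Module
open scoped MatrixGroups
open Cfsg.Agent.Lib.GraphInv.Sim Cfsg.Agent.Lib.GraphInv.Forms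
open Cfsg.Agent.Lib.Classical.SympForm

variable {ι κ : Type} [Fintype ι] [DecidableEq ι] [Fintype κ] [DecidableEq κ]

section basic

variable {K : Type*} [Field K]

/-- The isometries of a matrix. -/
def isoG (A : Matrix ι ι K) : Subgroup (GL ι K) where
  carrier := {k | (k : Matrix ι ι K)ᵀ * A * (k : Matrix ι ι K) = A}
  mul_mem' {a b} ha hb := by
    show ((a * b : GL ι K) : Matrix ι ι K)ᵀ * A * ((a * b : GL ι K) : Matrix ι ι K) = A
    rw [Units.val_mul, Matrix.transpose_mul]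
    calc (b : Matrix ι ι K)ᵀ * (a : Matrix ι ι K)ᵀ * A * ((a : Matrix ι ι K) * b)
        = (b : Matrix ι ι K)ᵀ * ((a : Matrix ι ι K)ᵀ * A * a) * b := by simp only [Matrix.mul_assoc]
      _ = A := by
        have ha' : (a : Matrix ι ι K)ᵀ * A * (a : Matrix ι ι K) = A := ha
        have hb' : (b : Matrix ι ι K)ᵀ * A * (b : Matrix ι ι K) = A := hb
        rw [ha', hb']
  one_mem' := by
    show ((1 : GL ι K) : Matrix ι ι K)ᵀ * A * ((1 : GL ι K) : Matrix ι ι K) = A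
    simp
  inv_mem' {a} ha := by
    show ((a⁻¹ : GL ι K) : Matrix ι ι K)ᵀ * A * ((a⁻¹ : GL ι K) : Matrix ι ι K) = A
    have ha' : (a : Matrix ι ι K)ᵀ * A * (a : Matrix ι ι K) = A := ha
    have h1 : ((a⁻¹ : GL ι K) : Matrix ι ι K)ᵀ * (a : Matrix ι ι K)ᵀ = 1 := by
      rw [← Matrix.transpose_mul, gl_mul_inv', Matrix.transpose_one]
    have h2 := gl_mul_inv' a
    calc ((a⁻¹ : GL ι K) : Matrix ι ι K)ᵀ * A * ((a⁻¹ : GL ι K) : Matrix ι ι K)
        = ((a⁻¹ : GL ι K) : Matrix ι ι K)ᵀ * ((a : Matrix ι ι K)ᵀ * A * a) * ((a⁻¹ : GL ι K) : Matrix ι ι K) := by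
          rw [ha']
      _ = (((a⁻¹ : GL ι K) : Matrix ι ι K)ᵀ * (a : Matrix ι ι K)ᵀ) * A * ((a : Matrix ι ι K) * ((a⁻¹ : GL ι K) : Matrix ι ι K)) := by
          simp only [Matrix.mul_assoc]
      _ = A := by rw [h1, h2, Matrix.one_mul, Matrix.mul_one]

theorem mem_isoG {A : Matrix ι ι K} {k : GL ι K} :
    k ∈ isoG A ↔ (k : Matrix ι ι K)ᵀ * A * (k : Matrix ι ι K) = A := Iff.rfl

theorem isoG_le_simG (A : Matrix ι ι K) : isoG A ≤ simG A := fun k hk => ⟨1, by
  rw [Units.val_one, one_smul]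
  exact hk⟩

/-- Normalising a projective quotient. -/
theorem proj_of_norm (H N : Subgroup (GL ι K)) (hNH : N ≤ H)
    (h1 : ∀ k ∈ H, ∃ s ∈ Cfsg.Geo.scalars ι K, k * s ∈ N)
    (h2 : ∀ k ∈ N, k ∈ Cfsg.Geo.scalars ι K → k = 1) : Nonempty (↥N ≃* Cfsg.projQuot H) := by
  let f : ↥N →* Cfsg.projQuot H := (QuotientGroup.mk' _).comp (Subgroup.inclusion hNH)
  refine ⟨MulEquiv.ofBijective f ⟨?_, ?_⟩⟩
  · refine (injective_iff_map_eq_one f).2 fun k hk => ?_
    have h3 : Subgroup.inclusion hNH k ∈ (Cfsg.Geo.scalars ι K).subgroupOf H :=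
      (QuotientGroup.eq_one_iff _).1 hk
    exact Subtype.ext (h2 k.1 k.2 h3)
  · intro y
    obtain ⟨k, rfl⟩ := QuotientGroup.mk_surjective y
    obtain ⟨s, hs, hks⟩ := h1 k.1 k.2
    refine ⟨⟨k.1 * s, hks⟩, ?_⟩
    show (QuotientGroup.mk (Subgroup.inclusion hNH ⟨k.1 * s, hks⟩) : Cfsg.projQuot H) = QuotientGroup.mk k
    rw [QuotientGroup.eq]
    show _ ∈ (Cfsg.Geo.scalars ι K).subgroupOf H
    rw [Subgroup.mem_subgroupOf]
    show (k.1 * s)⁻¹ * k.1 ∈ Cfsg.Geo.scalars ι K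
    have : (k.1 * s)⁻¹ * k.1 = s⁻¹ := by group
    rw [this]
    exact inv_mem hs

end basic

section char2

variable {K : Type*} [Field K] [Fintype K] [CharP K 2]

theorem two_zero : (2 : K) = 0 := by
  have := CharP.cast_eq_zero K 2
  simpa using this

theorem add_sq_two (a b : K) : (a + b) ^ 2 = a ^ 2 + b ^ 2 := by
  have h2 := two_zero (K := K)
  linear_combination (a * b) * h2

theorem sq_inj' {a b : K} (h : a ^ 2 = b ^ 2) : a = b := by
  have h1 : (a + b) ^ 2 = 0 := by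
    rw [add_sq_two, h]
    exact CharTwo.add_self_eq_zero _
  have h2 : a + b = 0 := by simpa using h1
  exact CharTwo.add_eq_zero.1 h2

theorem exists_sqrt (a : K) : ∃ b : K, b ^ 2 = a := by
  obtain ⟨b, hb⟩ := FiniteField.isSquare_of_char_two (ringChar.eq K 2) a
  exact ⟨b, by rw [hb, sq]⟩

theorem exists_sqrt_unit (c : Kˣ) : ∃ e : Kˣ, ((e : K)) ^ 2 = c := by
  obtain ⟨b, hb⟩ := exists_sqrt (c : K)
  have hb0 : b ≠ 0 := by
    rintro rfl
    rw [zero_pow (by norm_num)] at hb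
    exact c.ne_zero hb.symm
  exact ⟨Units.mk0 b hb0, hb⟩

theorem exists_linear_sqrt (h : (ι → K) → K) (hadd : ∀ x y, h (x + y) = h x + h y)
    (hsm : ∀ (c : K) x, h (c • x) = c ^ 2 * h x) : ∃ a : ι → K, ∀ x, (a ⬝ᵥ x) ^ 2 = h x := by
  classical
  choose a ha using fun i => exists_sqrt (h (Pi.single i 1))
  refine ⟨a, fun x => ?_⟩
  let H : (ι → K) →+ K := AddMonoidHom.mk' h hadd
  have hx : x = ∑ i, x i • Pi.single i (1 : K) := by
    funext j
    simp [Finset.sum_apply, Pi.single_apply]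
  have h1 : h x = ∑ i, h (x i • Pi.single i (1 : K)) := by
    nth_rewrite 1 [hx]
    exact map_sum H _ _
  have h3 : (∑ i, a i * x i) ^ 2 = ∑ i, (a i * x i) ^ 2 := by
    haveI : Fact (Nat.Prime 2) := ⟨Nat.prime_two⟩
    exact sum_pow_char 2 _ _
  show (∑ i, a i * x i) ^ 2 = h x
  rw [h3, h1]
  refine Finset.sum_congr rfl fun i _ => ?_
  rw [hsm, mul_pow, ha]
  ring

/-- Quadratic maps that are additive up to the polar form. -/
theorem proj_isoG {A : Matrix ι ι K} (hA : A ≠ 0) : Nonempty (↥(isoG A) ≃* Cfsg.projQuot (simG A)) := by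
  refine proj_of_norm _ _ (isoG_le_simG A) ?_ ?_
  · rintro k ⟨c, hc⟩
    obtain ⟨e, he⟩ := exists_sqrt_unit c
    refine ⟨Units.map (Matrix.scalar ι : K →+* Matrix ι ι K).toMonoidHom e⁻¹, ⟨e⁻¹, rfl⟩, ?_⟩
    show ((k * Units.map (Matrix.scalar ι : K →+* Matrix ι ι K).toMonoidHom e⁻¹ : GL ι K) : Matrix ι ι K)ᵀ * A *
      ((k * Units.map (Matrix.scalar ι : K →+* Matrix ι ι K).toMonoidHom e⁻¹ : GL ι K) : Matrix ι ι K) = A
    have e1 : ((k * Units.map (Matrix.scalar ι : K →+* Matrix ι ι K).toMonoidHom e⁻¹ : GL ι K) : Matrix ι ι K) =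
        ((e⁻¹ : Kˣ) : K) • (k : Matrix ι ι K) := by
      rw [Units.val_mul]
      ext i j
      simp [Matrix.mul_apply, Matrix.scalar_apply, Matrix.diagonal_apply, mul_comm]
    rw [e1, Matrix.transpose_smul, Matrix.smul_mul, Matrix.smul_mul, Matrix.mul_smul, hc, ← he]
    simp only [smul_smul]
    have : ((e⁻¹ : Kˣ) : K) * ((e⁻¹ : Kˣ) : K) * (e : K) ^ 2 = 1 := by
      have := e.inv_mul
      rw [Units.val_inv_eq_inv_val]
      field_simp
    rw [mul_assoc, ← mul_assoc _ _ ((e : K) ^ 2)] at *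
    rw [this, one_smul]
  · intro k hk hs
    obtain ⟨c, hc⟩ := (Cfsg.Geo.mem_scalars_iff k).1 hs
    have hk' : (k : Matrix ι ι K)ᵀ * A * (k : Matrix ι ι K) = A := hk
    rw [hc, Matrix.transpose_smul, Matrix.transpose_one] at hk'
    simp only [Matrix.smul_mul, Matrix.mul_smul, Matrix.one_mul, Matrix.mul_one, smul_smul] at hk'
    have h1 : ((c : K) * c - 1) • A = 0 := by
      rw [sub_smul, one_smul, hk', sub_self]
    have h2 : (c : K) * c - 1 = 0 := (smul_eq_zero.1 h1).resolve_right hA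
    have h3 : (c : K) ^ 2 = 1 ^ 2 := by
      rw [one_pow, sq]
      exact sub_eq_zero.1 h2
    have h4 : (c : K) = 1 := sq_inj' h3
    apply Units.ext
    rw [hc, h4, one_smul, Units.val_one]

end char2

section symp

variable {K : Type*} [Field K] {m : ℕ}

/-- An element of the symplectic group as an invertible matrix. -/
def glOfSp (s : ↥(Matrix.symplecticGroup (Fin m) K)) : GL (Fin m ⊕ Fin m) K :=
  ⟨s.1, (s⁻¹).1, congrArg Subtype.val (mul_inv_cancel s), congrArg Subtype.val (inv_mul_cancel s)⟩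

theorem coe_glOfSp (s : ↥(Matrix.symplecticGroup (Fin m) K)) :
    ((glOfSp s : GL (Fin m ⊕ Fin m) K) : Matrix (Fin m ⊕ Fin m) (Fin m ⊕ Fin m) K) = s.1 := rfl

theorem mem_sp_iff (k : Matrix (Fin m ⊕ Fin m) (Fin m ⊕ Fin m) K) :
    k ∈ Matrix.symplecticGroup (Fin m) K ↔ kᵀ * Matrix.J (Fin m) K * k = Matrix.J (Fin m) K :=
  SymplecticGroup.mem_iff'

/-- The isometries of the standard alternating matrix. -/
def isoJ_equiv (m : ℕ) (K : Type*) [Field K] :
    ↥(isoG (Matrix.J (Fin m) K)) ≃* ↥(Matrix.symplecticGroup (Fin m) K) where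
  toFun k := ⟨k.1.1, (mem_sp_iff _).2 k.2⟩
  invFun s := ⟨glOfSp s, (mem_sp_iff _).1 s.2⟩
  left_inv k := Subtype.ext (Units.ext rfl)
  right_inv s := Subtype.ext rfl
  map_mul' a b := Subtype.ext rfl

end symp

section cent

variable {K : Type*} [Field K] [Fintype K] [CharP K 2] {m : ℕ} (i₀ : Fin m)

/-- The symmetric non-alternating model in even dimension. -/
def Je : Matrix (Fin m ⊕ Fin m) (Fin m ⊕ Fin m) K :=
  Matrix.J (Fin m) K + Matrix.single (Sum.inl i₀) (Sum.inl i₀) 1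

theorem dot_single (a : Fin m ⊕ Fin m) (x y : Fin m ⊕ Fin m → K) :
    x ⬝ᵥ ((Matrix.single a a (1 : K)) *ᵥ y) = x a * y a := by
  have h : (Matrix.single a a (1 : K)) *ᵥ y = Pi.single a (y a) := by
    rw [Matrix.single_mulVec, one_mul]
    rfl
  rw [h, dotProduct_single]

theorem dot_Je (x y : Fin m ⊕ Fin m → K) :
    x ⬝ᵥ (Je i₀ *ᵥ y) = Cfsg.sympForm m K x y + x (Sum.inl i₀) * y (Sum.inl i₀) := by
  rw [Je, Matrix.add_mulVec, dotProduct_add, dot_single]
  rfl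

theorem sympForm_self (x : Fin m ⊕ Fin m → K) : Cfsg.sympForm m K x x = 0 := sympBilin_isAlt x

theorem sympForm_mul (k : Matrix (Fin m ⊕ Fin m) (Fin m ⊕ Fin m) K) (x y : Fin m ⊕ Fin m → K) :
    Cfsg.sympForm m K (k *ᵥ x) (k *ᵥ y) = x ⬝ᵥ ((kᵀ * Matrix.J (Fin m) K * k) *ᵥ y) := dot_conj k _ x y

/-- The vector defining the transvection. -/
def w₀ : Fin m ⊕ Fin m → K := Pi.single (Sum.inr i₀) 1

theorem J_w₀ : Matrix.J (Fin m) K *ᵥ (w₀ i₀) = Pi.single (Sum.inl i₀) 1 := by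
  funext j
  rcases j with j | j
  · simp only [Matrix.J, w₀, Matrix.mulVec, dotProduct, Fintype.sum_sum_type, Matrix.fromBlocks_apply₁₁,
      Matrix.fromBlocks_apply₁₂]
    simp [Pi.single_apply, Matrix.one_apply, CharTwo.neg_eq, eq_comm]
  · simp only [Matrix.J, w₀, Matrix.mulVec, dotProduct, Fintype.sum_sum_type, Matrix.fromBlocks_apply₂₁,
      Matrix.fromBlocks_apply₂₂]
    simp [Pi.single_apply]

theorem sympForm_w₀ (x : Fin m ⊕ Fin m → K) : Cfsg.sympForm m K x (w₀ i₀) = x (Sum.inl i₀) := by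
  unfold Cfsg.sympForm
  rw [J_w₀, dotProduct_single, mul_one]

/-- The transvection. -/
noncomputable def tv₀ : ↥(Matrix.symplecticGroup (Fin m) K) :=
  ⟨Cfsg.sympTransvection m (w₀ i₀) 1, sympTransvection_mem _ _⟩

theorem tv₀_mulVec (x : Fin m ⊕ Fin m → K) :
    ((tv₀ i₀ : ↥(Matrix.symplecticGroup (Fin m) K)) : Matrix (Fin m ⊕ Fin m) (Fin m ⊕ Fin m) K) *ᵥ x =
    x + x (Sum.inl i₀) • w₀ i₀ := by
  show Cfsg.sympTransvection m (w₀ i₀) 1 *ᵥ x = _
  rw [sympTransvection_mulVec, one_mul, sympForm_w₀]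

theorem isTransvection_tv₀ : Cfsg.IsTransvection ((tv₀ i₀ : ↥(Matrix.symplecticGroup (Fin m) K)) : Matrix (Fin m ⊕ Fin m) (Fin m ⊕ Fin m) K) := by
  have hsub : ∀ x, (((tv₀ i₀ : ↥(Matrix.symplecticGroup (Fin m) K)) : Matrix (Fin m ⊕ Fin m) (Fin m ⊕ Fin m) K) - 1) *ᵥ x =
      x (Sum.inl i₀) • w₀ i₀ := by
    intro x
    rw [Matrix.sub_mulVec, Matrix.one_mulVec, tv₀_mulVec, add_sub_cancel_left]
  have hw : w₀ (K := K) i₀ ≠ 0 := by
    intro h
    have := congrFun h (Sum.inr i₀)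
    simp [w₀] at this
  constructor
  · have hR : LinearMap.range (((tv₀ i₀ : ↥(Matrix.symplecticGroup (Fin m) K)) : Matrix (Fin m ⊕ Fin m) (Fin m ⊕ Fin m) K) - 1).mulVecLin =
        Submodule.span K {w₀ i₀} := by
      apply le_antisymm
      · rintro _ ⟨x, rfl⟩
        rw [Matrix.mulVecLin_apply, hsub]
        exact Submodule.smul_mem _ _ (Submodule.mem_span_singleton_self _)
      · rw [Submodule.span_singleton_le_iff_mem]
        refine ⟨Pi.single (Sum.inl i₀) 1, ?_⟩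
        rw [Matrix.mulVecLin_apply, hsub]
        simp
    rw [Matrix.rank, hR]
    exact finrank_span_singleton hw
  · apply Matrix.mulVec_injective
    funext x
    rw [← Matrix.mulVec_mulVec, hsub, hsub]
    simp [w₀]

/-- The centraliser of the transvection is the stabiliser of the first coordinate. -/
theorem comm_tv_iff (s : ↥(Matrix.symplecticGroup (Fin m) K)) :
    s * tv₀ i₀ = tv₀ i₀ * s ↔ ∀ x : Fin m ⊕ Fin m → K, (s.1 *ᵥ x) (Sum.inl i₀) = x (Sum.inl i₀) := by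
  have hS : ∀ x y, Cfsg.sympForm m K (s.1 *ᵥ x) (s.1 *ᵥ y) = Cfsg.sympForm m K x y :=
    (mem_symplecticGroup_iff _).1 s.2
  have hcoe : ∀ (a b : ↥(Matrix.symplecticGroup (Fin m) K)) x, (a * b).1 *ᵥ x = a.1 *ᵥ (b.1 *ᵥ x) := by
    intro a b x
    rw [Matrix.mulVec_mulVec]
    rfl
  have hw : w₀ (K := K) i₀ ≠ 0 := by
    intro h
    have := congrFun h (Sum.inr i₀)
    simp [w₀] at this
  constructor
  · intro h
    have h1 : ∀ x : Fin m ⊕ Fin m → K, x (Sum.inl i₀) • (s.1 *ᵥ w₀ i₀) = (s.1 *ᵥ x) (Sum.inl i₀) • w₀ i₀ := by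
      intro x
      have h3 : (s * tv₀ i₀).1 *ᵥ x = (tv₀ i₀ * s).1 *ᵥ x := congrArg (fun z : ↥(Matrix.symplecticGroup (Fin m) K) => z.1 *ᵥ x) h
      rw [hcoe, hcoe, tv₀_mulVec, tv₀_mulVec, Matrix.mulVec_add, Matrix.mulVec_smul] at h3
      exact add_left_cancel h3
    set κ₀ : K := (s.1 *ᵥ (Pi.single (Sum.inl i₀) 1)) (Sum.inl i₀) with hκ
    have h4 : s.1 *ᵥ w₀ i₀ = κ₀ • w₀ i₀ := by
      have := h1 (Pi.single (Sum.inl i₀) 1)
      rw [Pi.single_eq_same, one_smul] at this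
      exact this
    have h5 : ∀ x : Fin m ⊕ Fin m → K, (s.1 *ᵥ x) (Sum.inl i₀) = κ₀ * x (Sum.inl i₀) := by
      intro x
      have h6 := h1 x
      rw [h4, smul_smul] at h6
      have h7 : (x (Sum.inl i₀) * κ₀ - (s.1 *ᵥ x) (Sum.inl i₀)) • w₀ (K := K) i₀ = 0 := by
        rw [sub_smul, h6, sub_self]
      have h8 := (smul_eq_zero.1 h7).resolve_right hw
      rw [mul_comm] at h8
      exact (sub_eq_zero.1 h8).symm
    have h9 : κ₀ ^ 2 = 1 ^ 2 := by
      have h10 := hS (Pi.single (Sum.inl i₀) 1) (w₀ i₀)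
      rw [h4] at h10
      have e1 : Cfsg.sympForm m K (s.1 *ᵥ Pi.single (Sum.inl i₀) 1) (κ₀ • w₀ i₀) =
          κ₀ * Cfsg.sympForm m K (s.1 *ᵥ Pi.single (Sum.inl i₀) 1) (w₀ i₀) := by
        unfold Cfsg.sympForm
        rw [Matrix.mulVec_smul, dotProduct_smul, smul_eq_mul]
      rw [e1, sympForm_w₀, sympForm_w₀] at h10
      simp only [Pi.single_eq_same] at h10
      rw [← hκ] at h10
      rw [one_pow, sq]
      exact h10
    have h11 : κ₀ = 1 := sq_inj' h9
    intro x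
    rw [h5, h11, one_mul]
  · intro h
    have h1 : s.1 *ᵥ w₀ i₀ = w₀ i₀ := by
      have hinv : ∀ y, s.1 *ᵥ ((s⁻¹).1 *ᵥ y) = y := by
        intro y
        rw [← hcoe, mul_inv_cancel]
        exact Matrix.one_mulVec y
      have key : ∀ y : Fin m ⊕ Fin m → K, Cfsg.sympForm m K y (s.1 *ᵥ w₀ i₀) = Cfsg.sympForm m K y (w₀ i₀) := by
        intro y
        have e1 := hS ((s⁻¹).1 *ᵥ y) (w₀ i₀)
        rw [hinv, sympForm_w₀] at e1
        have e2 := h ((s⁻¹).1 *ᵥ y)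
        rw [hinv] at e2
        rw [e1, sympForm_w₀, e2]
      have h2 : Matrix.J (Fin m) K *ᵥ (s.1 *ᵥ w₀ i₀) = Matrix.J (Fin m) K *ᵥ (w₀ i₀) :=
        funext fun j => by
          have := key (Pi.single j 1)
          unfold Cfsg.sympForm at this
          simpa using this
      have hJJ : ∀ v : Fin m ⊕ Fin m → K, Matrix.J (Fin m) K *ᵥ (Matrix.J (Fin m) K *ᵥ v) = -v := by
        intro v
        rw [Matrix.mulVec_mulVec, Matrix.J_squared, Matrix.neg_mulVec, Matrix.one_mulVec]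
      have h3 := congrArg (fun v => Matrix.J (Fin m) K *ᵥ v) h2
      simp only [hJJ, neg_inj] at h3
      exact h3
    apply Subtype.ext
    apply Matrix.mulVec_injective
    funext x
    have e1 : (s * tv₀ i₀).1 *ᵥ x = (tv₀ i₀ * s).1 *ᵥ x := by
      rw [hcoe, hcoe, tv₀_mulVec, tv₀_mulVec, Matrix.mulVec_add, Matrix.mulVec_smul, h1, h]
    exact e1

end cent

end Cfsg.Agent.Lib.GraphInv.Char2A
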