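/-
Similarity groups in characteristic two, continued: the centraliser of a transvection, the odd
dimensional models and the orthogonal group of the odd dimensional quadratic form.
-/
import Mathlib
import Cfsg.Agent.Lib.GraphInv.Char2A

set_option autoImplicit false
set_option linter.unusedSimpArgs false
set_option linter.unusedSectionVars false
set_option linter.unusedVariables false

namespace Cfsg.Agent.Lib.GraphInv.Char2B

open Matrix Module
open scoped MatrixGroups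
open Cfsg.Agent.Lib.GraphInv.Sim Cfsg.Agent.Lib.GraphInv.Forms Cfsg.Agent.Lib.GraphInv.Char2A
open Cfsg.Agent.Lib.Classical.SympForm

variable {K : Type*} [Field K] [Fintype K] [CharP K 2] {m : ℕ}

section cent

variable (i₀ : Fin m)

theorem mem_isoJe_iff (k : GL (Fin m ⊕ Fin m) K) :
    k ∈ isoG (Je i₀) ↔ ((k : Matrix (Fin m ⊕ Fin m) (Fin m ⊕ Fin m) K) ∈ Matrix.symplecticGroup (Fin m) K ∧
      ∀ x : Fin m ⊕ Fin m → K, ((k : Matrix (Fin m ⊕ Fin m) (Fin m ⊕ Fin m) K) *ᵥ x) (Sum.inl i₀) = x (Sum.inl i₀)) := by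
  constructor
  · intro h
    have hform : ∀ x y : Fin m ⊕ Fin m → K,
        Cfsg.sympForm m K ((k : Matrix (Fin m ⊕ Fin m) (Fin m ⊕ Fin m) K) *ᵥ x) ((k : Matrix (Fin m ⊕ Fin m) (Fin m ⊕ Fin m) K) *ᵥ y) +
          ((k : Matrix (Fin m ⊕ Fin m) (Fin m ⊕ Fin m) K) *ᵥ x) (Sum.inl i₀) * ((k : Matrix (Fin m ⊕ Fin m) (Fin m ⊕ Fin m) K) *ᵥ y) (Sum.inl i₀) =
        Cfsg.sympForm m K x y + x (Sum.inl i₀) * y (Sum.inl i₀) := by
      intro x y
      rw [← dot_Je, ← dot_Je, dot_conj, (mem_isoG.1 h)]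
    have h0 : ∀ x : Fin m ⊕ Fin m → K, ((k : Matrix (Fin m ⊕ Fin m) (Fin m ⊕ Fin m) K) *ᵥ x) (Sum.inl i₀) = x (Sum.inl i₀) := by
      intro x
      have h1 := hform x x
      rw [sympForm_self, sympForm_self, zero_add, zero_add, ← sq, ← sq] at h1
      exact sq_inj' h1
    refine ⟨(mem_symplecticGroup_iff _).2 fun x y => ?_, h0⟩
    have h1 := hform x y
    rw [h0, h0] at h1
    exact add_right_cancel h1
  · rintro ⟨h1, h2⟩
    refine mem_isoG.2 (eq_of_dot fun u v => ?_)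
    rw [← dot_conj, dot_Je, dot_Je, h2, h2, (mem_symplecticGroup_iff _).1 h1]

/-- The isometries of the non-alternating model are the centraliser of a transvection. -/
noncomputable def isoJe_equiv :
    ↥(isoG (Je (K := K) i₀)) ≃* ↥(Subgroup.centralizer ({tv₀ i₀} : Set ↥(Matrix.symplecticGroup (Fin m) K))) where
  toFun k := ⟨⟨k.1.1, ((mem_isoJe_iff i₀ k.1).1 k.2).1⟩, by
    refine Subgroup.mem_centralizer_iff.2 ?_
    rintro _ rfl
    exact ((comm_tv_iff i₀ _).2 ((mem_isoJe_iff i₀ k.1).1 k.2).2).symm⟩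
  invFun s := ⟨glOfSp s.1, (mem_isoJe_iff i₀ _).2 ⟨s.1.2,
    (comm_tv_iff i₀ s.1).1 (Subgroup.mem_centralizer_iff.1 s.2 _ rfl).symm⟩⟩
  left_inv k := Subtype.ext (Units.ext rfl)
  right_inv s := Subtype.ext (Subtype.ext rfl)
  map_mul' a b := Subtype.ext (Subtype.ext rfl)

end cent

section odd

/-- The symmetric model in odd dimension, characteristic two. -/
def Mo (m : ℕ) (K : Type*) [Field K] : Matrix (Unit ⊕ (Fin m ⊕ Fin m)) (Unit ⊕ (Fin m ⊕ Fin m)) K :=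
  fromBlocks 1 0 0 (Matrix.J (Fin m) K)

theorem dot_Mo (x y : Unit ⊕ (Fin m ⊕ Fin m) → K) :
    x ⬝ᵥ (Mo m K *ᵥ y) = x (Sum.inl ()) * y (Sum.inl ()) + Cfsg.sympForm m K (x ∘ Sum.inr) (y ∘ Sum.inr) := by
  rw [Mo, dot_blocks]
  simp [dotProduct, Cfsg.sympForm]

/-- The embedding of the symplectic group in the odd dimensional group. -/
noncomputable def liftSp (s : ↥(Matrix.symplecticGroup (Fin m) K)) : GL (Unit ⊕ (Fin m ⊕ Fin m)) K :=
  ⟨fromBlocks 1 0 0 s.1, fromBlocks 1 0 0 (s⁻¹).1, by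
      rw [Matrix.fromBlocks_multiply]
      have := congrArg Subtype.val (mul_inv_cancel s)
      have h1 : s.1 * (s⁻¹).1 = 1 := this
      simp [h1], by
      rw [Matrix.fromBlocks_multiply]
      have := congrArg Subtype.val (inv_mul_cancel s)
      have h1 : (s⁻¹).1 * s.1 = 1 := this
      simp [h1]⟩

theorem coe_liftSp (s : ↥(Matrix.symplecticGroup (Fin m) K)) :
    ((liftSp s : GL (Unit ⊕ (Fin m ⊕ Fin m)) K) : Matrix (Unit ⊕ (Fin m ⊕ Fin m)) (Unit ⊕ (Fin m ⊕ Fin m)) K) = fromBlocks 1 0 0 s.1 := rfl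

theorem liftSp_mem (s : ↥(Matrix.symplecticGroup (Fin m) K)) : liftSp s ∈ isoG (Mo m K) := by
  rw [mem_isoG, coe_liftSp, Mo, Matrix.fromBlocks_transpose, Matrix.fromBlocks_multiply, Matrix.fromBlocks_multiply]
  have h1 := (mem_sp_iff s.1).1 s.2
  simp [h1]

/-- The odd dimensional isometry group is the symplectic group. -/
theorem isoMo_equiv (m : ℕ) (K : Type*) [Field K] [Fintype K] [CharP K 2] :
    Nonempty (↥(isoG (Mo m K)) ≃* ↥(Matrix.symplecticGroup (Fin m) K)) := by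
  let f : ↥(Matrix.symplecticGroup (Fin m) K) →* ↥(isoG (Mo m K)) :=
    { toFun := fun s => ⟨liftSp s, liftSp_mem s⟩
      map_one' := by
        apply Subtype.ext
        apply Units.ext
        show fromBlocks 1 0 0 (1 : Matrix (Fin m ⊕ Fin m) (Fin m ⊕ Fin m) K) = 1
        simp
      map_mul' := fun a b => by
        apply Subtype.ext
        apply Units.ext
        show fromBlocks 1 0 0 (a.1 * b.1) = fromBlocks 1 0 0 a.1 * fromBlocks 1 0 0 b.1
        rw [Matrix.fromBlocks_multiply]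
        simp }
  have hinj : Function.Injective f := by
    intro a b h
    have h1 : fromBlocks 1 0 0 a.1 = fromBlocks (1 : Matrix Unit Unit K) 0 0 b.1 :=
      congrArg (fun z : ↥(isoG (Mo m K)) => ((z.1 : GL (Unit ⊕ (Fin m ⊕ Fin m)) K) : Matrix (Unit ⊕ (Fin m ⊕ Fin m)) (Unit ⊕ (Fin m ⊕ Fin m)) K)) h
    exact Subtype.ext (Matrix.fromBlocks_inj.1 h1).2.2.2
  have hsurj : Function.Surjective f := by
    rintro ⟨k, hk⟩
    set M : Matrix (Unit ⊕ (Fin m ⊕ Fin m)) (Unit ⊕ (Fin m ⊕ Fin m)) K := (k : Matrix (Unit ⊕ (Fin m ⊕ Fin m)) (Unit ⊕ (Fin m ⊕ Fin m)) K) with hM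
    have hform : ∀ x y : Unit ⊕ (Fin m ⊕ Fin m) → K,
        (M *ᵥ x) (Sum.inl ()) * (M *ᵥ y) (Sum.inl ()) + Cfsg.sympForm m K ((M *ᵥ x) ∘ Sum.inr) ((M *ᵥ y) ∘ Sum.inr) =
          x (Sum.inl ()) * y (Sum.inl ()) + Cfsg.sympForm m K (x ∘ Sum.inr) (y ∘ Sum.inr) := by
      intro x y
      rw [← dot_Mo, ← dot_Mo, hM, dot_conj, (mem_isoG.1 hk)]
    have h0 : ∀ x, (M *ᵥ x) (Sum.inl ()) = x (Sum.inl ()) := by
      intro x
      have h1 := hform x x
      rw [sympForm_self, sympForm_self, add_zero, add_zero, ← sq, ← sq] at h1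
      exact sq_inj' h1
    have hform' : ∀ x y : Unit ⊕ (Fin m ⊕ Fin m) → K,
        Cfsg.sympForm m K ((M *ᵥ x) ∘ Sum.inr) ((M *ᵥ y) ∘ Sum.inr) = Cfsg.sympForm m K (x ∘ Sum.inr) (y ∘ Sum.inr) := by
      intro x y
      have h1 := hform x y
      rw [h0, h0] at h1
      exact add_left_cancel h1
    have hsur : ∀ z, M *ᵥ (((k⁻¹ : GL (Unit ⊕ (Fin m ⊕ Fin m)) K) : Matrix (Unit ⊕ (Fin m ⊕ Fin m)) (Unit ⊕ (Fin m ⊕ Fin m)) K) *ᵥ z) = z := by
      intro z
      rw [Matrix.mulVec_mulVec, hM, gl_mul_inv', Matrix.one_mulVec]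
    -- the first column
    let e₀ : Unit ⊕ (Fin m ⊕ Fin m) → K := Pi.single (Sum.inl ()) 1
    have hcol : ∀ j, (M *ᵥ e₀) (Sum.inr j) = 0 := by
      have h1 : ∀ z : Fin m ⊕ Fin m → K, Cfsg.sympForm m K ((M *ᵥ e₀) ∘ Sum.inr) z = 0 := by
        intro z
        have h2 := hform' e₀ (((k⁻¹ : GL (Unit ⊕ (Fin m ⊕ Fin m)) K) : Matrix (Unit ⊕ (Fin m ⊕ Fin m)) (Unit ⊕ (Fin m ⊕ Fin m)) K) *ᵥ Sum.elim 0 z)
        rw [hsur] at h2
        have e1 : (Sum.elim 0 z : Unit ⊕ (Fin m ⊕ Fin m) → K) ∘ Sum.inr = z := by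
          funext i
          rfl
        have e2 : e₀ ∘ Sum.inr = 0 := by
          funext i
          simp [e₀]
        rw [e1, e2] at h2
        rw [h2]
        unfold Cfsg.sympForm
        simp
      have h3 := sympBilin_nondegenerate (m := m) (F := K)
      have h4 : (M *ᵥ e₀) ∘ Sum.inr = 0 := h3.1 _ (fun z => h1 z)
      intro j
      exact congrFun h4 j
    have hent : ∀ j, M (Sum.inr j) (Sum.inl ()) = 0 := by
      intro j
      have := hcol j
      simpa [e₀] using this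
    have hent' : ∀ j, M (Sum.inl ()) (Sum.inr j) = 0 := by
      intro j
      have := h0 (Pi.single (Sum.inr j) 1)
      simpa using this
    have hent1 : M (Sum.inl ()) (Sum.inl ()) = 1 := by
      have := h0 (Pi.single (Sum.inl ()) 1)
      simpa using this
    have hblock : M = fromBlocks 1 0 0 M.toBlocks₂₂ := by
      refine Matrix.ext fun i j => ?_
      rcases i with i | i <;> rcases j with j | j
      · simpa using hent1
      · simpa using hent' j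
      · simpa using hent i
      · rfl
    have hact : ∀ x : Fin m ⊕ Fin m → K, M.toBlocks₂₂ *ᵥ x = (M *ᵥ Sum.elim 0 x) ∘ Sum.inr := by
      intro x
      conv_rhs => rw [hblock]
      rw [Matrix.fromBlocks_mulVec]
      funext i
      simp
    have hC : M.toBlocks₂₂ ∈ Matrix.symplecticGroup (Fin m) K := by
      rw [mem_symplecticGroup_iff]
      intro x y
      rw [hact, hact, hform']
      rfl
    refine ⟨⟨M.toBlocks₂₂, hC⟩, ?_⟩
    apply Subtype.ext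
    apply Units.ext
    exact hblock.symm
  exact ⟨(MulEquiv.ofBijective f ⟨hinj, hsurj⟩).symm⟩

/-- Polar identity for the hyperbolic quadratic form. -/
theorem polar_plus (x y : Fin m ⊕ Fin m → K) :
    Cfsg.quadFormPlus m K (x + y) = Cfsg.quadFormPlus m K x + Cfsg.quadFormPlus m K y + Cfsg.sympForm m K x y := by
  have h := sympForm_eq_sum (F := K) x y
  rw [h]
  unfold Cfsg.quadFormPlus
  simp only [Pi.add_apply]
  rw [← Finset.sum_add_distrib, ← Finset.sum_add_distrib]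
  refine Finset.sum_congr rfl fun i _ => ?_
  have h2 := two_zero (K := K)
  linear_combination (x (Sum.inl i) * y (Sum.inr i)) * h2

theorem plus_smul (c : K) (x : Fin m ⊕ Fin m → K) :
    Cfsg.quadFormPlus m K (c • x) = c ^ 2 * Cfsg.quadFormPlus m K x := by
  unfold Cfsg.quadFormPlus
  rw [Finset.mul_sum]
  refine Finset.sum_congr rfl fun i _ => ?_
  simp only [Pi.smul_apply, smul_eq_mul]
  ring

theorem plus_zero : Cfsg.quadFormPlus m K 0 = 0 := by
  unfold Cfsg.quadFormPlus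
  simp

theorem odd_eq (v : Unit ⊕ (Fin m ⊕ Fin m) → K) :
    Cfsg.quadFormOdd m K v = v (Sum.inl ()) ^ 2 + Cfsg.quadFormPlus m K (v ∘ Sum.inr) := rfl

theorem odd_smul (c : K) (v : Unit ⊕ (Fin m ⊕ Fin m) → K) :
    Cfsg.quadFormOdd m K (c • v) = c ^ 2 * Cfsg.quadFormOdd m K v := by
  rw [odd_eq, odd_eq]
  have e : (c • v) ∘ Sum.inr = c • (v ∘ Sum.inr) := rfl
  rw [e, plus_smul]
  simp only [Pi.smul_apply, smul_eq_mul]
  ring

theorem odd_polar (x y : Unit ⊕ (Fin m ⊕ Fin m) → K) :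
    Cfsg.quadFormOdd m K (x + y) = Cfsg.quadFormOdd m K x + Cfsg.quadFormOdd m K y +
      Cfsg.sympForm m K (x ∘ Sum.inr) (y ∘ Sum.inr) := by
  rw [odd_eq, odd_eq, odd_eq]
  have e : (x + y) ∘ Sum.inr = x ∘ Sum.inr + y ∘ Sum.inr := rfl
  rw [e, polar_plus]
  simp only [Pi.add_apply]
  rw [add_sq_two]
  ring

theorem mem_iso_Q {ι : Type} [Fintype ι] [DecidableEq ι] {Q : (ι → K) → K} {k : GL ι K} :
    k ∈ Cfsg.isometryGroup K Q ↔ ∀ v, Q ((k : Matrix ι ι K) *ᵥ v) = Q v :=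
  ⟨fun h v => h v 0, fun h u _ => h u⟩

section blocks

variable {M : Matrix (Unit ⊕ (Fin m ⊕ Fin m)) (Unit ⊕ (Fin m ⊕ Fin m)) K}
  {N : Matrix (Unit ⊕ (Fin m ⊕ Fin m)) (Unit ⊕ (Fin m ⊕ Fin m)) K}

theorem blk_form (hM : ∀ v, Cfsg.quadFormOdd m K (M *ᵥ v) = Cfsg.quadFormOdd m K v)
    (x y : Unit ⊕ (Fin m ⊕ Fin m) → K) :
    Cfsg.sympForm m K ((M *ᵥ x) ∘ Sum.inr) ((M *ᵥ y) ∘ Sum.inr) = Cfsg.sympForm m K (x ∘ Sum.inr) (y ∘ Sum.inr) := by
  have h1 := odd_polar (m := m) (K := K) (M *ᵥ x) (M *ᵥ y)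
  rw [← Matrix.mulVec_add, hM, hM, hM, odd_polar] at h1
  exact (add_left_cancel h1).symm

theorem blk_col (hM : ∀ v, Cfsg.quadFormOdd m K (M *ᵥ v) = Cfsg.quadFormOdd m K v)
    (M' : Matrix (Unit ⊕ (Fin m ⊕ Fin m)) (Unit ⊕ (Fin m ⊕ Fin m)) K) (hM' : M * M' = 1) (j : Fin m ⊕ Fin m) :
    M (Sum.inr j) (Sum.inl ()) = 0 := by
  let e₀ : Unit ⊕ (Fin m ⊕ Fin m) → K := Pi.single (Sum.inl ()) 1
  have h1 : ∀ z : Fin m ⊕ Fin m → K, Cfsg.sympForm m K ((M *ᵥ e₀) ∘ Sum.inr) z = 0 := by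
    intro z
    have h2 := blk_form hM e₀ (M' *ᵥ Sum.elim 0 z)
    rw [Matrix.mulVec_mulVec, hM', Matrix.one_mulVec] at h2
    have e1 : (Sum.elim 0 z : Unit ⊕ (Fin m ⊕ Fin m) → K) ∘ Sum.inr = z := by
      funext i
      rfl
    have e2 : e₀ ∘ Sum.inr = 0 := by
      funext i
      simp [e₀]
    rw [e1, e2] at h2
    rw [h2]
    unfold Cfsg.sympForm
    simp
  have h3 := sympBilin_nondegenerate (m := m) (F := K)
  have h4 : (M *ᵥ e₀) ∘ Sum.inr = 0 := h3.1 _ (fun z => h1 z)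
  have := congrFun h4 j
  simpa [e₀] using this

theorem blk_one (hM : ∀ v, Cfsg.quadFormOdd m K (M *ᵥ v) = Cfsg.quadFormOdd m K v)
    (M' : Matrix (Unit ⊕ (Fin m ⊕ Fin m)) (Unit ⊕ (Fin m ⊕ Fin m)) K) (hM' : M * M' = 1) :
    M (Sum.inl ()) (Sum.inl ()) = 1 := by
  let e₀ : Unit ⊕ (Fin m ⊕ Fin m) → K := Pi.single (Sum.inl ()) 1
  have h1 := hM e₀
  rw [odd_eq, odd_eq] at h1
  have e2 : e₀ ∘ Sum.inr = 0 := by
    funext i
    simp [e₀]
  have e3 : (M *ᵥ e₀) ∘ Sum.inr = 0 := by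
    funext j
    have := blk_col hM M' hM' j
    simpa [e₀] using this
  rw [e2, e3, plus_zero, add_zero, add_zero] at h1
  have h2 : (M *ᵥ e₀) (Sum.inl ()) ^ 2 = 1 ^ 2 := by
    rw [h1]
    simp [e₀]
  have h3 := sq_inj' h2
  simpa [e₀] using h3

theorem blk_act (hc : ∀ j, M (Sum.inr j) (Sum.inl ()) = 0) (x : Unit ⊕ (Fin m ⊕ Fin m) → K) :
    (M *ᵥ x) ∘ Sum.inr = M.toBlocks₂₂ *ᵥ (x ∘ Sum.inr) := by
  funext i
  simp [Matrix.mulVec, dotProduct, Fintype.sum_sum_type, hc, Matrix.toBlocks₂₂]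

theorem blk_sp (hM : ∀ v, Cfsg.quadFormOdd m K (M *ᵥ v) = Cfsg.quadFormOdd m K v)
    (hc : ∀ j, M (Sum.inr j) (Sum.inl ()) = 0) : M.toBlocks₂₂ ∈ Matrix.symplecticGroup (Fin m) K := by
  rw [mem_symplecticGroup_iff]
  intro x y
  have h1 := blk_form hM (Sum.elim 0 x) (Sum.elim 0 y)
  rw [blk_act hc, blk_act hc] at h1
  exact h1

theorem blk_mul (hc : ∀ j, M (Sum.inr j) (Sum.inl ()) = 0) : (M * N).toBlocks₂₂ = M.toBlocks₂₂ * N.toBlocks₂₂ := by
  refine Matrix.ext fun i j => ?_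
  simp [Matrix.mul_apply, Fintype.sum_sum_type, hc, Matrix.toBlocks₂₂]

end blocks

/-- The odd dimensional orthogonal group in characteristic two is symplectic. -/
theorem isoQ_equiv (m : ℕ) (K : Type*) [Field K] [Fintype K] [CharP K 2] :
    Nonempty (↥(Cfsg.isometryGroup K (Cfsg.quadFormOdd m K)) ≃* ↥(Matrix.symplecticGroup (Fin m) K)) := by
  have hc : ∀ (k : ↥(Cfsg.isometryGroup K (Cfsg.quadFormOdd m K))) (j : Fin m ⊕ Fin m),
      ((k.1 : GL (Unit ⊕ (Fin m ⊕ Fin m)) K) : Matrix (Unit ⊕ (Fin m ⊕ Fin m)) (Unit ⊕ (Fin m ⊕ Fin m)) K) (Sum.inr j) (Sum.inl ()) = 0 :=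
    fun k j => blk_col (mem_iso_Q.1 k.2) _ (gl_mul_inv' k.1) j
  let ρ : ↥(Cfsg.isometryGroup K (Cfsg.quadFormOdd m K)) →* ↥(Matrix.symplecticGroup (Fin m) K) :=
    { toFun := fun k => ⟨((k.1 : GL (Unit ⊕ (Fin m ⊕ Fin m)) K) : Matrix (Unit ⊕ (Fin m ⊕ Fin m)) (Unit ⊕ (Fin m ⊕ Fin m)) K).toBlocks₂₂,
        blk_sp (mem_iso_Q.1 k.2) (hc k)⟩
      map_one' := by
        apply Subtype.ext
        show ((1 : Matrix (Unit ⊕ (Fin m ⊕ Fin m)) (Unit ⊕ (Fin m ⊕ Fin m)) K)).toBlocks₂₂ = 1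
        rw [← Matrix.fromBlocks_one, Matrix.toBlocks_fromBlocks₂₂]
      map_mul' := fun a b => by
        apply Subtype.ext
        exact blk_mul (hc a) }
  have hρ : ∀ k, ((ρ k : ↥(Matrix.symplecticGroup (Fin m) K)) : Matrix (Fin m ⊕ Fin m) (Fin m ⊕ Fin m) K) =
      ((k.1 : GL (Unit ⊕ (Fin m ⊕ Fin m)) K) : Matrix (Unit ⊕ (Fin m ⊕ Fin m)) (Unit ⊕ (Fin m ⊕ Fin m)) K).toBlocks₂₂ := fun k => rfl
  have hinj : Function.Injective ρ := by
    refine (injective_iff_map_eq_one ρ).2 fun k hk => ?_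
    set M : Matrix (Unit ⊕ (Fin m ⊕ Fin m)) (Unit ⊕ (Fin m ⊕ Fin m)) K := ((k.1 : GL (Unit ⊕ (Fin m ⊕ Fin m)) K) : Matrix (Unit ⊕ (Fin m ⊕ Fin m)) (Unit ⊕ (Fin m ⊕ Fin m)) K) with hM
    have h1 : M.toBlocks₂₂ = 1 := by
      rw [← hρ, hk]
      rfl
    have hQ : ∀ v, Cfsg.quadFormOdd m K (M *ᵥ v) = Cfsg.quadFormOdd m K v := mem_iso_Q.1 k.2
    have h2 : ∀ j, M (Sum.inl ()) (Sum.inr j) = 0 := by
      intro j
      let v : Unit ⊕ (Fin m ⊕ Fin m) → K := Pi.single (Sum.inr j) 1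
      have h3 := hQ v
      rw [odd_eq, odd_eq, blk_act (hc k), h1, Matrix.one_mulVec] at h3
      have h4 : v (Sum.inl ()) = 0 := by simp [v]
      rw [h4, zero_pow (by norm_num), zero_add] at h3
      have h5 : (M *ᵥ v) (Sum.inl ()) ^ 2 = 0 := by
        have := add_right_cancel (a := (M *ᵥ v) (Sum.inl ()) ^ 2) (b := Cfsg.quadFormPlus m K (v ∘ Sum.inr)) (c := 0) (by
          rw [h3, zero_add])
        exact this
      have h6 : (M *ᵥ v) (Sum.inl ()) = 0 := by simpa using h5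
      simpa [v] using h6
    have h3 : M = 1 := by
      rw [← Matrix.fromBlocks_one]
      refine Matrix.ext fun i j => ?_
      rcases i with i | i <;> rcases j with j | j
      · simpa using blk_one hQ _ (gl_mul_inv' k.1)
      · simpa using h2 j
      · simpa using hc k i
      · have := congrFun (congrFun h1 i) j
        simpa [Matrix.toBlocks₂₂] using this
    apply Subtype.ext
    apply Units.ext
    exact h3
  have hsurj : Function.Surjective ρ := by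
    intro s
    have hS : ∀ x y, Cfsg.sympForm m K (s.1 *ᵥ x) (s.1 *ᵥ y) = Cfsg.sympForm m K x y :=
      (mem_symplecticGroup_iff _).1 s.2
    obtain ⟨a, ha⟩ := exists_linear_sqrt (ι := Fin m ⊕ Fin m) (K := K)
      (fun x => Cfsg.quadFormPlus m K (s.1 *ᵥ x) + Cfsg.quadFormPlus m K x)
      (by
        intro x y
        rw [Matrix.mulVec_add, polar_plus, polar_plus, hS]
        have h2 := two_zero (K := K)
        linear_combination (Cfsg.sympForm m K x y) * h2)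
      (by
        intro c x
        rw [Matrix.mulVec_smul, plus_smul, plus_smul]
        ring)
    let M : Matrix (Unit ⊕ (Fin m ⊕ Fin m)) (Unit ⊕ (Fin m ⊕ Fin m)) K :=
      fromBlocks 1 (Matrix.of fun _ j => a j) 0 s.1
    have hdet : M.det ≠ 0 := by
      rw [Matrix.det_fromBlocks_zero₂₁, Matrix.det_one, one_mul]
      intro h0
      have h1 : s.1 * (s⁻¹).1 = 1 := congrArg Subtype.val (mul_inv_cancel s)
      have h2 := congrArg Matrix.det h1
      rw [Matrix.det_mul, h0, zero_mul, Matrix.det_one] at h2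
      exact zero_ne_one h2
    let k : GL (Unit ⊕ (Fin m ⊕ Fin m)) K := Matrix.GeneralLinearGroup.mkOfDetNeZero M hdet
    have hk : k ∈ Cfsg.isometryGroup K (Cfsg.quadFormOdd m K) := by
      refine mem_iso_Q.2 fun v => ?_
      show Cfsg.quadFormOdd m K (M *ᵥ v) = _
      have e1 : M *ᵥ v = Sum.elim (fun _ => v (Sum.inl ()) + a ⬝ᵥ (v ∘ Sum.inr)) (s.1 *ᵥ (v ∘ Sum.inr)) := by
        funext i
        rcases i with i | i
        · simp [M, Matrix.mulVec, dotProduct, Fintype.sum_sum_type, Matrix.one_apply]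
        · simp [M, Matrix.mulVec, dotProduct, Fintype.sum_sum_type]
      rw [e1, odd_eq, odd_eq]
      have e2 : (Sum.elim (fun _ => v (Sum.inl ()) + a ⬝ᵥ (v ∘ Sum.inr)) (s.1 *ᵥ (v ∘ Sum.inr)) : Unit ⊕ (Fin m ⊕ Fin m) → K) ∘ Sum.inr = s.1 *ᵥ (v ∘ Sum.inr) := by
        funext i
        rfl
      rw [e2]
      simp only [Sum.elim_inl]
      rw [add_sq_two, ha]
      have h2 := two_zero (K := K)
      linear_combination (Cfsg.quadFormPlus m K (s.1 *ᵥ (v ∘ Sum.inr))) * h2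
    refine ⟨⟨k, hk⟩, ?_⟩
    apply Subtype.ext
    rw [hρ]
    show M.toBlocks₂₂ = s.1
    rw [Matrix.toBlocks_fromBlocks₂₂]
  exact ⟨(MulEquiv.ofBijective ρ ⟨hinj, hsurj⟩)⟩

/-- The projective similarity group of the odd dimensional form in characteristic two. -/
theorem iso_PGO_odd (m : ℕ) (K : Type*) [Field K] [Fintype K] [CharP K 2] :
    Nonempty (↥(Cfsg.isometryGroup K (Cfsg.quadFormOdd m K)) ≃* Cfsg.PGO K (Cfsg.quadFormOdd m K)) := by
  refine proj_of_norm _ _ ?_ ?_ ?_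
  · intro k hk
    exact ⟨1, fun v => by
      rw [Units.val_one, one_mul]
      exact mem_iso_Q.1 hk v⟩
  · rintro k ⟨c, hc⟩
    obtain ⟨e, he⟩ := exists_sqrt_unit c
    refine ⟨Units.map (Matrix.scalar (Unit ⊕ (Fin m ⊕ Fin m)) : K →+* Matrix _ _ K).toMonoidHom e⁻¹, ⟨e⁻¹, rfl⟩, ?_⟩
    refine mem_iso_Q.2 fun v => ?_
    have e1 : (((k * Units.map (Matrix.scalar (Unit ⊕ (Fin m ⊕ Fin m)) : K →+* Matrix _ _ K).toMonoidHom e⁻¹ : GL _ K)) : Matrix (Unit ⊕ (Fin m ⊕ Fin m)) (Unit ⊕ (Fin m ⊕ Fin m)) K) *ᵥ v =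
        ((e⁻¹ : Kˣ) : K) • ((k : Matrix (Unit ⊕ (Fin m ⊕ Fin m)) (Unit ⊕ (Fin m ⊕ Fin m)) K) *ᵥ v) := by
      rw [Units.val_mul, ← Matrix.mulVec_mulVec]
      have e2 : ((Units.map (Matrix.scalar (Unit ⊕ (Fin m ⊕ Fin m)) : K →+* Matrix _ _ K).toMonoidHom e⁻¹ : GL (Unit ⊕ (Fin m ⊕ Fin m)) K) : Matrix (Unit ⊕ (Fin m ⊕ Fin m)) (Unit ⊕ (Fin m ⊕ Fin m)) K) *ᵥ v = ((e⁻¹ : Kˣ) : K) • v := by
        funext i
        simp [Matrix.mulVec, dotProduct, Matrix.scalar_apply, Matrix.diagonal_apply, Finset.sum_ite_eq]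
      rw [e2, Matrix.mulVec_smul]
    rw [e1, odd_smul, hc, ← he, ← mul_assoc, ← mul_pow, Units.inv_mul, one_pow, one_mul]
  · intro k hk hs
    obtain ⟨c, hc⟩ := (Cfsg.Geo.mem_scalars_iff k).1 hs
    have h1 := mem_iso_Q.1 hk (Pi.single (Sum.inl ()) 1)
    rw [hc, Matrix.smul_mulVec, Matrix.one_mulVec, odd_smul] at h1
    have h2 : Cfsg.quadFormOdd m K (Pi.single (Sum.inl ()) 1) = 1 := by
      rw [odd_eq]
      have e2 : (Pi.single (Sum.inl ()) 1 : Unit ⊕ (Fin m ⊕ Fin m) → K) ∘ Sum.inr = 0 := by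
        funext i
        simp
      rw [e2, plus_zero]
      simp
    rw [h2, mul_one] at h1
    have h3 : (c : K) = 1 := sq_inj' (by rw [h1, one_pow])
    apply Units.ext
    rw [hc, h3, one_smul, Units.val_one]

/-- Summary: the non-alternating odd model has the right projective group. -/
theorem proj_Mo (m : ℕ) (K : Type*) [Field K] [Fintype K] [CharP K 2] :
    Nonempty (Cfsg.projQuot (simG (Mo m K)) ≃* Cfsg.PGO K (Cfsg.quadFormOdd m K)) := by
  have hMo : Mo m K ≠ 0 := by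
    intro h
    have := congrFun (congrFun h (Sum.inl ())) (Sum.inl ())
    simp [Mo] at this
  obtain ⟨e1⟩ := proj_isoG hMo
  obtain ⟨e2⟩ := isoMo_equiv m K
  obtain ⟨e3⟩ := isoQ_equiv m K
  obtain ⟨e4⟩ := iso_PGO_odd m K
  exact ⟨e1.symm.trans (e2.trans (e3.symm.trans e4))⟩

/-- The alternating model in characteristic two. -/
theorem proj_J2 (hm : 1 ≤ m) :
    Nonempty (Cfsg.projQuot (simG (Matrix.J (Fin m) K)) ≃* ↥(Matrix.symplecticGroup (Fin m) K)) := by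
  have hJ : Matrix.J (Fin m) K ≠ 0 := by
    intro h
    have h1 := det_J_ne (F := K) m
    rw [h] at h1
    apply h1
    haveI : Nonempty (Fin m ⊕ Fin m) := ⟨Sum.inl ⟨0, hm⟩⟩
    simp [Matrix.det_zero]
  obtain ⟨e1⟩ := proj_isoG hJ
  exact ⟨e1.symm.trans (isoJ_equiv m K)⟩

/-- The non-alternating model in even dimension. -/
theorem proj_Je (i₀ : Fin m) :
    Nonempty (Cfsg.projQuot (simG (Je (K := K) i₀)) ≃*
      ↥(Subgroup.centralizer ({tv₀ i₀} : Set ↥(Matrix.symplecticGroup (Fin m) K)))) := by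
  have hJ : Je (K := K) i₀ ≠ 0 := by
    intro h
    have h1 := dot_Je (K := K) i₀ (Pi.single (Sum.inl i₀) 1) (Pi.single (Sum.inl i₀) 1)
    rw [h, sympForm_self] at h1
    simp at h1
  obtain ⟨e1⟩ := proj_isoG hJ
  exact ⟨e1.symm.trans (isoJe_equiv i₀)⟩

end odd

end Cfsg.Agent.Lib.GraphInv.Char2B
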