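/-
Classification of the non-degenerate symmetric matrices in characteristic two (perfect fields):
non-alternating ones are congruent to `J + E₀₀` in even dimension and to `1 ⊕ J` in odd dimension.
-/
import Mathlib
import Cfsg.Agent.Lib.GraphInv.Char2B

set_option autoImplicit false
set_option linter.unusedSimpArgs false
set_option linter.unusedSectionVars false
set_option linter.unusedVariables false

namespace Cfsg.Agent.Lib.GraphInv.Char2C

open Matrix Module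
open scoped MatrixGroups
open Cfsg.Agent.Lib.GraphInv.Sim Cfsg.Agent.Lib.GraphInv.Forms Cfsg.Agent.Lib.GraphInv.Char2A
  Cfsg.Agent.Lib.GraphInv.Char2B
open Cfsg.Agent.Lib.Classical.SympForm
open Cfsg.Agent.Lib.QuadDisc.Basic

theorem even_finrank_of_alt {K U : Type*} [Field K] [AddCommGroup U] [Module K U] [FiniteDimensional K U]
    (C : LinearMap.BilinForm K U) (hC : C.IsAlt) (hN : C.Nondegenerate) : Even (finrank K U) := by
  classical
  obtain ⟨m', k', b, h1, h2, h3, h4⟩ := Cfsg.Agent.S0752.result C hC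
  have hk' : k' = 0 := by
    by_contra hne
    have hpos : 0 < k' := Nat.pos_of_ne_zero hne
    let j : Fin k' := ⟨0, hpos⟩
    have h5 : b (Sum.inr j) = 0 := hN.1 _ (h4 j)
    exact b.ne_zero _ h5
  subst hk'
  have := Module.finrank_eq_card_basis b
  simp only [Fintype.card_sum, Fintype.card_fin] at this
  exact ⟨m', by omega⟩

variable {ι : Type} [Fintype ι] [DecidableEq ι] {K : Type*} [Field K] [Fintype K] [CharP K 2]

section setup

variable {A : Matrix ι ι K}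

theorem dot_symm (hS : Aᵀ = A) (x y : ι → K) : x ⬝ᵥ (A *ᵥ y) = y ⬝ᵥ (A *ᵥ x) := by
  rw [Matrix.dotProduct_mulVec, dotProduct_comm, ← Matrix.mulVec_transpose, hS]

theorem exists_r (hS : Aᵀ = A) : ∃ r : ι → K, ∀ x, (r ⬝ᵥ x) ^ 2 = x ⬝ᵥ (A *ᵥ x) := by
  refine exists_linear_sqrt _ (fun x y => ?_) (fun c x => ?_)
  · rw [Matrix.mulVec_add, dotProduct_add, add_dotProduct, add_dotProduct, dot_symm hS y x]
    have h2 := two_zero (K := K)
    linear_combination (x ⬝ᵥ (A *ᵥ y)) * h2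
  · rw [Matrix.mulVec_smul, dotProduct_smul, smul_dotProduct, smul_eq_mul, smul_eq_mul]
    ring

theorem exists_u (hd : A.det ≠ 0) (r : ι → K) : ∃ u : ι → K, A *ᵥ u = r := by
  refine ⟨A⁻¹ *ᵥ r, ?_⟩
  rw [Matrix.mulVec_mulVec, Matrix.mul_nonsing_inv _ (isUnit_iff_ne_zero.2 hd), Matrix.one_mulVec]

theorem s_cases (hS : Aᵀ = A) {r u : ι → K} (hr : ∀ x, (r ⬝ᵥ x) ^ 2 = x ⬝ᵥ (A *ᵥ x)) (hu : A *ᵥ u = r) :
    r ⬝ᵥ u = 0 ∨ r ⬝ᵥ u = 1 := by
  have h1 := hr u
  rw [hu, dotProduct_comm u r, sq] at h1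
  have h2 : (r ⬝ᵥ u) * ((r ⬝ᵥ u) - 1) = 0 := by
    rw [mul_sub, h1]
    simp
  rcases mul_eq_zero.1 h2 with h | h
  · exact Or.inl h
  · exact Or.inr (sub_eq_zero.1 h)

/-- The associated alternating matrix. -/
def altPart (A : Matrix ι ι K) (r : ι → K) : Matrix ι ι K := A + Matrix.vecMulVec r r

theorem dot_altPart (r x y : ι → K) : x ⬝ᵥ (altPart A r *ᵥ y) = x ⬝ᵥ (A *ᵥ y) + (r ⬝ᵥ x) * (r ⬝ᵥ y) := by
  rw [altPart, Matrix.add_mulVec, dotProduct_add, Matrix.vecMulVec_mulVec, op_smul_eq_smul,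
    dotProduct_smul, smul_eq_mul, dotProduct_comm x r, mul_comm]

theorem altPart_alt {r : ι → K} (hr : ∀ x, (r ⬝ᵥ x) ^ 2 = x ⬝ᵥ (A *ᵥ x)) (x : ι → K) :
    x ⬝ᵥ (altPart A r *ᵥ x) = 0 := by
  rw [dot_altPart, ← hr, ← sq]
  exact CharTwo.add_self_eq_zero _

theorem altPart_det (hd : A.det ≠ 0) {r u : ι → K} (hu : A *ᵥ u = r) (hs : r ⬝ᵥ u = 0) :
    (altPart A r).det ≠ 0 := by
  intro h0
  obtain ⟨x, hx0, hx⟩ := Matrix.exists_mulVec_eq_zero_iff.2 h0
  have h1 : A *ᵥ (x + (r ⬝ᵥ x) • u) = 0 := by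
    rw [Matrix.mulVec_add, Matrix.mulVec_smul, hu]
    rw [altPart, Matrix.add_mulVec, Matrix.vecMulVec_mulVec, op_smul_eq_smul] at hx
    exact hx
  have h2 : x + (r ⬝ᵥ x) • u = 0 := by
    by_contra hne
    exact hd (Matrix.exists_mulVec_eq_zero_iff.1 ⟨_, hne, h1⟩)
  have h3 : x = (r ⬝ᵥ x) • u := by
    funext i
    have := congrFun h2 i
    simp only [Pi.add_apply, Pi.smul_apply, Pi.zero_apply] at this
    exact CharTwo.add_eq_zero.1 this
  have h4 : r ⬝ᵥ x = 0 := by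
    rw [h3, dotProduct_smul, hs, smul_zero]
  rw [h4, zero_smul] at h3
  exact hx0 h3

end setup

section even

variable {A : Matrix ι ι K} {m : ℕ} (i₀ : Fin m)

/-- Isotropic case. -/
theorem cong_Je_aux (hS : Aᵀ = A) (hd : A.det ≠ 0) (hc : Fintype.card ι = 2 * m)
    {r u : ι → K} (hr : ∀ x, (r ⬝ᵥ x) ^ 2 = x ⬝ᵥ (A *ᵥ x)) (hu : A *ᵥ u = r) (hs : r ⬝ᵥ u = 0)
    (hu0 : u ≠ 0) : Cong A (Je i₀) := by
  have hd' := altPart_det hd hu hs
  obtain ⟨ψ, hψ⟩ := Cfsg.Agent.Lib.Witt.SympModel.exists_model (Matrix.toBilin' (altPart A r))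
    (bf_alt (altPart_alt hr)) (bf_nondeg hd') m (by rw [finrank_fun, hc])
  have hψ' : ∀ x y, (ψ x) ⬝ᵥ (altPart A r *ᵥ ψ y) = Cfsg.sympForm m K x y := by
    intro x y
    have := hψ x y
    rwa [Matrix.toBilin'_apply'] at this
  have hv0 : ψ.symm u ≠ 0 := by
    intro h
    apply hu0
    have := congrArg ψ h
    simpa using this
  have hw0 : w₀ (K := K) i₀ ≠ 0 := by
    intro h
    have := congrFun h (Sum.inr i₀)
    simp [w₀] at this
  obtain ⟨B, -, hB⟩ := exists_closure_ne_zero (w₀ i₀) (ψ.symm u) hw0 hv0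
  let Bl : (Fin m ⊕ Fin m → K) ≃ₗ[K] (Fin m ⊕ Fin m → K) :=
    Matrix.toLin'OfInv (M := (B⁻¹).1) (M' := B.1) (congrArg Subtype.val (inv_mul_cancel B))
      (congrArg Subtype.val (mul_inv_cancel B))
  have hBl : ∀ x, Bl x = B.1 *ᵥ x := fun x => rfl
  have hBS : ∀ x y, Cfsg.sympForm m K (B.1 *ᵥ x) (B.1 *ᵥ y) = Cfsg.sympForm m K x y :=
    (mem_symplecticGroup_iff _).1 B.2
  let ψ' : (Fin m ⊕ Fin m → K) ≃ₗ[K] (ι → K) := Bl.trans ψ
  have hψ'a : ∀ x, ψ' x = ψ (B.1 *ᵥ x) := fun x => rfl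
  have hψw : ψ' (w₀ i₀) = u := by
    rw [hψ'a, hB]
    simp
  have hAu : altPart A r *ᵥ u = r := by
    rw [altPart, Matrix.add_mulVec, Matrix.vecMulVec_mulVec, op_smul_eq_smul, hu, hs, zero_smul, add_zero]
  have hψ'' : ∀ x y, (ψ' x) ⬝ᵥ (altPart A r *ᵥ ψ' y) = Cfsg.sympForm m K x y := by
    intro x y
    rw [hψ'a x, hψ'a y, hψ', hBS]
  have hrx : ∀ x, r ⬝ᵥ ψ' x = x (Sum.inl i₀) := by
    intro x
    have h1 := hψ'' x (w₀ i₀)
    rw [hψw, hAu, sympForm_w₀] at h1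
    rw [dotProduct_comm]
    exact h1
  refine cong_of_isometry ψ' fun x y => ?_
  have h1 := dot_altPart (A := A) r (ψ' x) (ψ' y)
  rw [hψ'', hrx, hrx] at h1
  rw [dot_Je, h1]
  have h2 := two_zero (K := K)
  linear_combination (-(x (Sum.inl i₀) * y (Sum.inl i₀))) * h2

/-- The non-alternating case in even dimension. -/
theorem cong_Je (hS : Aᵀ = A) (hd : A.det ≠ 0) (hc : Fintype.card ι = 2 * m) (hna : ∃ x : ι → K, x ⬝ᵥ (A *ᵥ x) ≠ 0) :
    Cong A (Je i₀) := by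
  obtain ⟨r, hr⟩ := exists_r hS
  obtain ⟨u, hu⟩ := exists_u hd r
  have hu0 : u ≠ 0 := by
    rintro rfl
    rw [Matrix.mulVec_zero] at hu
    subst hu
    obtain ⟨x, hx⟩ := hna
    apply hx
    rw [← hr]
    simp
  rcases s_cases hS hr hu with hs | hs
  · exact cong_Je_aux i₀ hS hd hc hr hu hs hu0
  · exfalso
    have hB : (Matrix.toBilin' A) u u ≠ 0 := by
      rw [Matrix.toBilin'_apply', hu, dotProduct_comm, hs]
      exact one_ne_zero
    have h1 := finrank_perp (Matrix.toBilin' A) u hB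
    have h2 : ((Matrix.toBilin' A).restrict (perp (Matrix.toBilin' A) u)).IsAlt := by
      rintro ⟨x, hx⟩
      have h3 := (mem_perp _ _ _).1 hx
      rw [Matrix.toBilin'_apply'] at h3
      show (Matrix.toBilin' A) x x = 0
      rw [Matrix.toBilin'_apply', ← hr]
      have h4 : r ⬝ᵥ x = 0 := by
        rw [← hu, dotProduct_comm, dot_symm hS]
        exact h3
      rw [h4]
      simp
    have h3 := even_finrank_of_alt _ h2 (restrict_nondegenerate _ (bf_nondeg hd) (bf_symm hS) u hB)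
    rw [finrank_fun, hc] at h1
    obtain ⟨t, ht⟩ := h3
    omega

end even

section odd

variable {A : Matrix ι ι K} {m : ℕ}

/-- Odd dimension. -/
theorem cong_Mo (hS : Aᵀ = A) (hd : A.det ≠ 0) (hc : Fintype.card ι = 2 * m + 1) : Cong A (Mo m K) := by
  obtain ⟨r, hr⟩ := exists_r hS
  obtain ⟨u, hu⟩ := exists_u hd r
  have hodd : ¬ Even (finrank K (ι → K)) := by
    rw [finrank_fun, hc]
    simp
  have hs : r ⬝ᵥ u = 1 := by
    rcases s_cases hS hr hu with hs | hs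
    · exfalso
      apply hodd
      exact even_finrank_of_alt _ (bf_alt (altPart_alt hr)) (bf_nondeg (altPart_det hd hu hs))
    · exact hs
  have hBu : (Matrix.toBilin' A) u u = 1 := by
    rw [Matrix.toBilin'_apply', hu, dotProduct_comm, hs]
  have hB : (Matrix.toBilin' A) u u ≠ 0 := by
    rw [hBu]
    exact one_ne_zero
  set W := perp (Matrix.toBilin' A) u with hW
  have h1 : finrank K W + 1 = finrank K (ι → K) := finrank_perp (Matrix.toBilin' A) u hB
  have hmem : ∀ x : W, r ⬝ᵥ (x : ι → K) = 0 := by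
    rintro ⟨x, hx⟩
    have h3 := (mem_perp _ _ _).1 hx
    rw [Matrix.toBilin'_apply'] at h3
    show r ⬝ᵥ x = 0
    rw [← hu, dotProduct_comm, dot_symm hS]
    exact h3
  have h2 : ((Matrix.toBilin' A).restrict W).IsAlt := by
    rintro ⟨x, hx⟩
    show (Matrix.toBilin' A) x x = 0
    rw [Matrix.toBilin'_apply', ← hr, hmem ⟨x, hx⟩]
    simp
  have hdim : finrank K W = 2 * m := by
    rw [finrank_fun, hc] at h1
    omega
  obtain ⟨ψ₁, hψ₁⟩ := Cfsg.Agent.Lib.Witt.SympModel.exists_model ((Matrix.toBilin' A).restrict W) h2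
    (restrict_nondegenerate _ (bf_nondeg hd) (bf_symm hS) u hB) m hdim
  have hψ₁' : ∀ x y, ((ψ₁ x : W) : ι → K) ⬝ᵥ (A *ᵥ ((ψ₁ y : W) : ι → K)) = Cfsg.sympForm m K x y := by
    intro x y
    have := hψ₁ x y
    rw [← this]
    show _ = (Matrix.toBilin' A) ((ψ₁ x : W) : ι → K) ((ψ₁ y : W) : ι → K)
    rw [Matrix.toBilin'_apply']
  let L : (Unit ⊕ (Fin m ⊕ Fin m) → K) →ₗ[K] (ι → K) :=
    (LinearMap.toSpanSingleton K (ι → K) u).comp (LinearMap.proj (Sum.inl ())) +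
      W.subtype.comp ((ψ₁ : (Fin m ⊕ Fin m → K) →ₗ[K] W).comp (LinearMap.funLeft K K Sum.inr))
  have hL : ∀ v, L v = v (Sum.inl ()) • u + ((ψ₁ (v ∘ Sum.inr) : W) : ι → K) := fun v => rfl
  have hinj : Function.Injective L := by
    refine (injective_iff_map_eq_zero L).2 fun v hv => ?_
    rw [hL] at hv
    have h3 := congrArg (fun z => r ⬝ᵥ z) hv
    simp only [dotProduct_add, dotProduct_smul, hs, hmem, smul_eq_mul, mul_one, add_zero, dotProduct_zero] at h3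
    rw [h3, zero_smul, zero_add] at hv
    have h4 : ψ₁ (v ∘ Sum.inr) = 0 := Subtype.ext hv
    have h5 : v ∘ Sum.inr = 0 := by simpa using h4
    funext i
    rcases i with i | i
    · exact h3
    · exact congrFun h5 i
  have hfr : finrank K (Unit ⊕ (Fin m ⊕ Fin m) → K) = finrank K (ι → K) := by
    rw [finrank_fun, finrank_fun, hc]
    simp only [Fintype.card_sum, Fintype.card_unit, Fintype.card_fin]
    omega
  let ψ : (Unit ⊕ (Fin m ⊕ Fin m) → K) ≃ₗ[K] (ι → K) := LinearMap.linearEquivOfInjective L hinj hfr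
  have hψ : ∀ v, ψ v = L v := fun v => rfl
  refine cong_of_isometry ψ fun x y => ?_
  rw [hψ, hψ, hL, hL, dot_Mo]
  have e1 : ∀ z : W, u ⬝ᵥ (A *ᵥ (z : ι → K)) = 0 := by
    intro z
    rw [dot_symm hS, hu, dotProduct_comm]
    exact hmem z
  have e2 : ∀ z : W, (z : ι → K) ⬝ᵥ (A *ᵥ u) = 0 := by
    intro z
    rw [hu, dotProduct_comm]
    exact hmem z
  have e3 : u ⬝ᵥ (A *ᵥ u) = 1 := by
    rw [← Matrix.toBilin'_apply']
    exact hBu
  simp only [Matrix.mulVec_add, Matrix.mulVec_smul, dotProduct_add, add_dotProduct, dotProduct_smul, smul_dotProduct,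
    smul_eq_mul, e1, e2, e3, hψ₁', mul_zero, add_zero, mul_one]
  ring

end odd

end Cfsg.Agent.Lib.GraphInv.Char2C
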