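/-
An abstract description of the involutory graph automorphisms (classified by `ε`-symmetric matrices
over a field `K`) and the consequences for the classes and centralisers.
-/
import Mathlib
import Cfsg.Agent.Lib.GraphInv.Char2C

set_option autoImplicit false
set_option linter.unusedSimpArgs false
set_option linter.unusedSectionVars false
set_option linter.unusedVariables false

namespace Cfsg.Agent.Lib.GraphInv.Model

open Matrix Module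
open scoped MatrixGroups
open Cfsg.Agent.Lib.GraphInv.Sim Cfsg.Agent.Lib.GraphInv.Forms Cfsg.Agent.Lib.GraphInv.Char2A
  Cfsg.Agent.Lib.GraphInv.Char2B Cfsg.Agent.Lib.GraphInv.Char2C

variable {K : Type*} [Field K] {n : ℕ} {X : Type*} [Group X]

/-- `ε`-symmetric invertible matrices. -/
def Eps (A : GL (Fin n) K) : Prop :=
  ∃ ε : K, (ε = 1 ∨ ε = -1) ∧ (A : Matrix (Fin n) (Fin n) K)ᵀ = ε • (A : Matrix (Fin n) (Fin n) K)

theorem eps_of_symm {A : GL (Fin n) K} (h : (A : Matrix (Fin n) (Fin n) K)ᵀ = A) : Eps A :=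
  ⟨1, Or.inl rfl, by rw [h, one_smul]⟩

theorem eps_of_skew {A : GL (Fin n) K} (h : (A : Matrix (Fin n) (Fin n) K)ᵀ = -A) : Eps A :=
  ⟨-1, Or.inr rfl, by rw [h, neg_smul, one_smul]⟩

/-- The abstract structure. -/
structure GModel (K : Type*) [Field K] (n : ℕ) {X : Type*} [Group X] (H : Subgroup X) (IsG : X → Prop)
    (R : GL (Fin n) K → X → Prop) : Prop where
  ex : ∀ A : GL (Fin n) K, Eps A → ∃ x, R A x
  mem : ∀ (A : GL (Fin n) K) (x : X), Eps A → R A x → IsG x ∧ orderOf x = 2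
  surj : ∀ x, IsG x → orderOf x = 2 → ∃ A : GL (Fin n) K, Eps A ∧ R A x
  conj : ∀ (A B : GL (Fin n) K) (x y : X), Eps A → Eps B → R A x → R B y →
    (Cfsg.IsConjUnder H x y ↔ Cong (A : Matrix (Fin n) (Fin n) K) (B : Matrix (Fin n) (Fin n) K))
  cent : ∀ (A : GL (Fin n) K) (x : X), Eps A → R A x →
    Nonempty (↥(H ⊓ Subgroup.centralizer {x}) ≃* Cfsg.projQuot (simG (A : Matrix (Fin n) (Fin n) K)))

/-- A representative on `Fin n` of a matrix on another index type. -/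
theorem exists_fin_rep {κ : Type} [Fintype κ] [DecidableEq κ] (B : Matrix κ κ K) (hd : B.det ≠ 0)
    (hc : Fintype.card κ = n) : ∃ A : GL (Fin n) K, Cong (A : Matrix (Fin n) (Fin n) K) B := by
  let e : Fin n ≃ κ := Fintype.equivOfCardEq (by simp [hc])
  have hd' : (B.submatrix e e).det ≠ 0 := by
    rw [Matrix.det_submatrix_equiv_self]
    exact hd
  refine ⟨Matrix.GeneralLinearGroup.mkOfDetNeZero _ hd', ?_⟩
  refine ⟨(1 : Matrix κ κ K).submatrix e id, (1 : Matrix κ κ K).submatrix id e, 1, ?_, ?_, ?_⟩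
  · rw [← Matrix.submatrix_mul _ _ e id e Function.bijective_id]
    simp
  · rw [← Matrix.submatrix_mul _ _ id e id e.bijective]
    simp
  · have h1 : ((1 : Matrix κ κ K).submatrix e id)ᵀ = (1 : Matrix κ κ K).submatrix id e := by
      ext i j
      simp [Matrix.one_apply, eq_comm]
    rw [h1]
    show (1 : Matrix κ κ K).submatrix id e * B.submatrix e e * (1 : Matrix κ κ K).submatrix e id = _
    rw [← Matrix.submatrix_mul _ _ id e e e.bijective, ← Matrix.submatrix_mul _ _ id e id e.bijective]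
    simp

theorem sym_of_odd {A : GL (Fin n) K} (hA : Eps A) (hn : Odd n) :
    (A : Matrix (Fin n) (Fin n) K)ᵀ = A := by
  obtain ⟨ε, hε, h⟩ := hA
  rcases hε with rfl | rfl
  · rwa [one_smul] at h
  · by_cases h2 : (2 : K) = 0
    · have h1 : (-1 : K) = 1 := by
        linear_combination (-1 : K) * h2
      rwa [h1, one_smul] at h
    · exfalso
      have h3 := congrArg Matrix.det h
      rw [Matrix.det_transpose, Matrix.det_smul, Fintype.card_fin, hn.neg_one_pow] at h3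
      have h4 : (2 : K) * (A : Matrix (Fin n) (Fin n) K).det = 0 := by
        linear_combination h3
      have hd : (A : Matrix (Fin n) (Fin n) K).det ≠ 0 := by
        have := (Matrix.isUnits_det_units A)
        exact this.ne_zero
      exact (mul_ne_zero h2 hd) h4

theorem gl_det_ne (A : GL (Fin n) K) : (A : Matrix (Fin n) (Fin n) K).det ≠ 0 :=
  (Matrix.isUnits_det_units A).ne_zero

section odd

variable [Fintype K] {H : Subgroup X} {IsG : X → Prop} {R : GL (Fin n) K → X → Prop}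

/-- Odd dimension. -/
theorem GModel.odd_main (M : GModel K n H IsG R) {m : ℕ} (hnm : n = 2 * m + 1) (x y : X) (hx : IsG x)
    (hx2 : orderOf x = 2) (hy : IsG y) (hy2 : orderOf y = 2) :
    Nonempty (↥(H ⊓ Subgroup.centralizer {x}) ≃* Cfsg.PGO K (Cfsg.quadFormOdd m K)) ∧ Cfsg.IsConjUnder H x y := by
  obtain ⟨A, hA, hRA⟩ := M.surj x hx hx2
  obtain ⟨B, hB, hRB⟩ := M.surj y hy hy2
  have hodd : Odd n := ⟨m, hnm⟩
  have hAs := sym_of_odd hA hodd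
  have hBs := sym_of_odd hB hodd
  have hc : Fintype.card (Fin n) = 2 * m + 1 := by simp [hnm]
  obtain ⟨e1⟩ := M.cent A x hA hRA
  rw [M.conj A B x y hA hB hRA hRB]
  by_cases h2 : (2 : K) = 0
  · haveI : CharP K 2 := CharTwo.of_one_ne_zero_of_two_eq_zero one_ne_zero h2
    have h3 := cong_Mo hAs (gl_det_ne A) hc
    have h4 := cong_Mo hBs (gl_det_ne B) hc
    obtain ⟨e2⟩ := Cong.proj h3
    obtain ⟨e3⟩ := proj_Mo m K
    exact ⟨⟨e1.trans (e2.trans e3)⟩, h3.trans h4.symm⟩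
  · have h3 := cong_Go h2 hAs (gl_det_ne A) hc
    have h4 := cong_Go h2 hBs (gl_det_ne B) hc
    obtain ⟨e2⟩ := Cong.proj h3
    obtain ⟨e3⟩ := proj_Go h2 m
    exact ⟨⟨e1.trans (e2.trans e3)⟩, h3.trans h4.symm⟩

end odd

section even

variable [Fintype K] {H : Subgroup X} {IsG : X → Prop} {R : GL (Fin n) K → X → Prop}

theorem two_ne_of_odd (hodd : Odd (Fintype.card K)) : (2 : K) ≠ 0 := by
  intro h2
  haveI : CharP K 2 := CharTwo.of_one_ne_zero_of_two_eq_zero one_ne_zero h2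
  have := FiniteField.even_card_of_char_two (F := K) (ringChar.eq K 2)
  have h3 := Nat.odd_iff.1 hodd
  omega

theorem J_transpose' (m : ℕ) : (Matrix.J (Fin m) K)ᵀ = -Matrix.J (Fin m) K := Matrix.J_transpose _ _

theorem alt_of_skew {ι : Type} [Fintype ι] [DecidableEq ι] {A : Matrix ι ι K} (h2 : (2 : K) ≠ 0) (h : Aᵀ = -A)
    (x : ι → K) : x ⬝ᵥ (A *ᵥ x) = 0 := by
  have h1 : x ⬝ᵥ (A *ᵥ x) = -(x ⬝ᵥ (A *ᵥ x)) := by
    nth_rewrite 1 [Matrix.dotProduct_mulVec]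
    rw [dotProduct_comm, ← Matrix.mulVec_transpose, h, Matrix.neg_mulVec, dotProduct_neg]
  have h3 : (2 : K) * (x ⬝ᵥ (A *ᵥ x)) = 0 := by
    linear_combination h1
  exact (mul_eq_zero.1 h3).resolve_left h2

/-- Even dimension, odd field. -/
theorem GModel.even_odd_main (M : GModel K n H IsG R) (hodd : Odd (Fintype.card K)) {m : ℕ} (hm : 2 ≤ m)
    (hnm : n = 2 * m) :
    ∃ (γ₁ γ₂ γ₃ : X) (a b : K), (∀ z₁ z₂ : K, z₁ ^ 2 + a * z₁ * z₂ + b * z₂ ^ 2 = 0 → z₁ = 0 ∧ z₂ = 0) ∧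
      IsG γ₁ ∧ orderOf γ₁ = 2 ∧ IsG γ₂ ∧ orderOf γ₂ = 2 ∧ IsG γ₃ ∧ orderOf γ₃ = 2 ∧
      ¬ Cfsg.IsConjUnder H γ₁ γ₂ ∧ ¬ Cfsg.IsConjUnder H γ₁ γ₃ ∧ ¬ Cfsg.IsConjUnder H γ₂ γ₃ ∧
      (∀ γ : X, IsG γ → orderOf γ = 2 → Cfsg.IsConjUnder H γ₁ γ ∨ Cfsg.IsConjUnder H γ₂ γ ∨ Cfsg.IsConjUnder H γ₃ γ) ∧
      Nonempty (↥(H ⊓ Subgroup.centralizer {γ₁}) ≃* Cfsg.PGSp m K) ∧
      Nonempty (↥(H ⊓ Subgroup.centralizer {γ₂}) ≃* Cfsg.PGO K (Cfsg.quadFormPlus m K)) ∧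
      Nonempty (↥(H ⊓ Subgroup.centralizer {γ₃}) ≃* Cfsg.PGO K (Cfsg.quadFormMinus (m - 1) K a b)) := by
  classical
  have h2 := two_ne_of_odd hodd
  obtain ⟨m', rfl⟩ : ∃ m', m = m' + 1 := ⟨m - 1, by omega⟩
  have hm1 : m' + 1 - 1 = m' := rfl
  rw [hm1]
  obtain ⟨ν, hν⟩ := FiniteField.exists_nonsquare (F := K) (fun h => h2 (by
    haveI : CharP K 2 := by
      have := ringChar.charP K
      rwa [h] at this
    exact two_zero))
  have hν0 : ν ≠ 0 := by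
    rintro rfl
    exact hν ⟨0, by simp⟩
  have h4 : (4 : K) ≠ 0 := by
    have : (4 : K) = 2 * 2 := by norm_num
    rw [this]
    exact mul_ne_zero h2 h2
  have hdJ := det_J_ne (F := K) (m' + 1)
  have hdp : (Gp (m' + 1) K).det ≠ 0 := by
    rw [det_Gp]
    exact pow_ne_zero _ (by simp)
  have hdm : (Gm m' K ν).det ≠ 0 := by
    rw [det_Gm]
    exact mul_ne_zero (pow_ne_zero _ (by simp)) (mul_ne_zero (neg_ne_zero.2 h4) hν0)
  obtain ⟨A₁, hA₁⟩ := exists_fin_rep (n := n) (Matrix.J (Fin (m' + 1)) K) hdJ (by simp only [Fintype.card_sum, Fintype.card_fin]; omega)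
  obtain ⟨A₂, hA₂⟩ := exists_fin_rep (n := n) (Gp (m' + 1) K) hdp (by simp only [Fintype.card_sum, Fintype.card_fin]; omega)
  obtain ⟨A₃, hA₃⟩ := exists_fin_rep (n := n) (Gm m' K ν) hdm (by simp only [Fintype.card_sum, Fintype.card_fin]; omega)
  have hE₁ : Eps A₁ := eps_of_skew (cong_skew hA₁.symm (J_transpose' _))
  have hE₂ : Eps A₂ := eps_of_symm (cong_symmetric hA₂.symm (Gp_symm _))
  have hE₃ : Eps A₃ := eps_of_symm (cong_symmetric hA₃.symm (Gm_symm _ _))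
  obtain ⟨γ₁, hγ₁⟩ := M.ex A₁ hE₁
  obtain ⟨γ₂, hγ₂⟩ := M.ex A₂ hE₂
  obtain ⟨γ₃, hγ₃⟩ := M.ex A₃ hE₃
  obtain ⟨h1a, h1b⟩ := M.mem A₁ γ₁ hE₁ hγ₁
  obtain ⟨h2a, h2b⟩ := M.mem A₂ γ₂ hE₂ hγ₂
  obtain ⟨h3a, h3b⟩ := M.mem A₃ γ₃ hE₃ hγ₃
  haveI : Nonempty (Fin (m' + 1) ⊕ Fin (m' + 1)) := ⟨Sum.inl 0⟩
  haveI : Nonempty ((Fin m' ⊕ Fin m') ⊕ Fin 2) := ⟨Sum.inr 0⟩
  refine ⟨γ₁, γ₂, γ₃, 0, -ν, aniso hν, h1a, h1b, h2a, h2b, h3a, h3b, ?_, ?_, ?_, ?_, ?_, ?_, ?_⟩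
  · rw [M.conj A₁ A₂ γ₁ γ₂ hE₁ hE₂ hγ₁ hγ₂]
    intro h
    exact not_cong_skew_symm h2 (J_transpose' _) (Gp_symm _) hdp ((hA₁.symm.trans h).trans hA₂)
  · rw [M.conj A₁ A₃ γ₁ γ₃ hE₁ hE₃ hγ₁ hγ₃]
    intro h
    exact not_cong_skew_symm h2 (J_transpose' _) (Gm_symm _ _) hdm ((hA₁.symm.trans h).trans hA₃)
  · rw [M.conj A₂ A₃ γ₂ γ₃ hE₂ hE₃ hγ₂ hγ₃]
    intro h
    exact not_cong_pm hν h2 ((hA₂.symm.trans h).trans hA₃)
  · intro γ hγ hγ2
    obtain ⟨A, hE, hR⟩ := M.surj γ hγ hγ2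
    rw [M.conj A₁ A γ₁ γ hE₁ hE hγ₁ hR, M.conj A₂ A γ₂ γ hE₂ hE hγ₂ hR, M.conj A₃ A γ₃ γ hE₃ hE hγ₃ hR]
    have hc : Fintype.card (Fin n) = 2 * (m' + 1) := by simp [hnm]
    obtain ⟨ε, hε, hAε⟩ := id hE
    rcases hε with rfl | rfl
    · rw [one_smul] at hAε
      by_cases hsq : IsSquare ((A : Matrix (Fin n) (Fin n) K).det * (-1) ^ (m' + 1))
      · right; left
        exact hA₂.trans (cong_Gp h2 hAε (gl_det_ne A) hc hsq).symm
      · right; right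
        exact hA₃.trans (cong_Gm h2 hAε (gl_det_ne A) (by omega) hν hsq).symm
    · rw [neg_smul, one_smul] at hAε
      left
      exact hA₁.trans (cong_J (alt_of_skew h2 hAε) (gl_det_ne A) hc).symm
  · obtain ⟨e1⟩ := M.cent A₁ γ₁ hE₁ hγ₁
    obtain ⟨e2⟩ := Cong.proj hA₁
    obtain ⟨e3⟩ := proj_J (F := K) (m' + 1)
    exact ⟨e1.trans (e2.trans e3)⟩
  · obtain ⟨e1⟩ := M.cent A₂ γ₂ hE₂ hγ₂
    obtain ⟨e2⟩ := Cong.proj hA₂
    obtain ⟨e3⟩ := proj_Gp h2 (m' + 1)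
    exact ⟨e1.trans (e2.trans e3)⟩
  · obtain ⟨e1⟩ := M.cent A₃ γ₃ hE₃ hγ₃
    obtain ⟨e2⟩ := Cong.proj hA₃
    obtain ⟨e3⟩ := proj_Gm h2 m' ν
    exact ⟨e1.trans (e2.trans e3)⟩

/-- Even dimension, even field. -/
theorem GModel.even_two_main [CharP K 2] (M : GModel K n H IsG R) {m : ℕ} (hm : 2 ≤ m) (hnm : n = 2 * m) :
    ∃ (γ₁ γ₃ : X) (t : ↥(Matrix.symplecticGroup (Fin m) K)),
      Cfsg.IsTransvection (t : Matrix (Fin m ⊕ Fin m) (Fin m ⊕ Fin m) K) ∧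
      IsG γ₁ ∧ orderOf γ₁ = 2 ∧ IsG γ₃ ∧ orderOf γ₃ = 2 ∧ ¬ Cfsg.IsConjUnder H γ₁ γ₃ ∧
      (∀ γ : X, IsG γ → orderOf γ = 2 → Cfsg.IsConjUnder H γ₁ γ ∨ Cfsg.IsConjUnder H γ₃ γ) ∧
      Nonempty (↥(H ⊓ Subgroup.centralizer {γ₁}) ≃* ↥(Matrix.symplecticGroup (Fin m) K)) ∧
      Nonempty (↥(H ⊓ Subgroup.centralizer {γ₃}) ≃*
        ↥(Subgroup.centralizer ({t} : Set ↥(Matrix.symplecticGroup (Fin m) K)))) := by
  classical
  let i₀ : Fin m := ⟨0, by omega⟩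
  have hdJ := det_J_ne (F := K) m
  have hJe_symm : (Je (K := K) i₀)ᵀ = Je i₀ := by
    have hn : -Matrix.J (Fin m) K = Matrix.J (Fin m) K := Matrix.ext fun i j => by
      rw [Matrix.neg_apply]
      exact CharTwo.neg_eq _
    rw [Je, Matrix.transpose_add, J_transpose', Matrix.transpose_single, hn]
  have hdJe : (Je (K := K) i₀).det ≠ 0 := by
    intro h0
    obtain ⟨v, hv0, hv⟩ := Matrix.exists_mulVec_eq_zero_iff.2 h0
    have h1 : ∀ x : Fin m ⊕ Fin m → K, Cfsg.sympForm m K x v + x (Sum.inl i₀) * v (Sum.inl i₀) = 0 := by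
      intro x
      rw [← dot_Je, hv, dotProduct_zero]
    have h2 : v (Sum.inl i₀) = 0 := by
      have h3 := h1 v
      rw [sympForm_self, zero_add] at h3
      exact mul_self_eq_zero.1 h3
    apply hv0
    exact (Cfsg.Agent.Lib.Classical.SympForm.sympBilin_nondegenerate (m := m) (F := K)).2 v (fun x => by
      have h3 := h1 x
      rw [h2, mul_zero, add_zero] at h3
      exact h3)
  obtain ⟨A₁, hA₁⟩ := exists_fin_rep (n := n) (Matrix.J (Fin m) K) hdJ (by simp only [Fintype.card_sum, Fintype.card_fin]; omega)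
  obtain ⟨A₃, hA₃⟩ := exists_fin_rep (n := n) (Je (K := K) i₀) hdJe (by simp only [Fintype.card_sum, Fintype.card_fin]; omega)
  have hJs : (Matrix.J (Fin m) K)ᵀ = Matrix.J (Fin m) K := by
    rw [J_transpose']
    exact Matrix.ext fun i j => by
      rw [Matrix.neg_apply]
      exact CharTwo.neg_eq _
  have hE₁ : Eps A₁ := eps_of_symm (cong_symmetric hA₁.symm hJs)
  have hE₃ : Eps A₃ := eps_of_symm (cong_symmetric hA₃.symm hJe_symm)
  obtain ⟨γ₁, hγ₁⟩ := M.ex A₁ hE₁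
  obtain ⟨γ₃, hγ₃⟩ := M.ex A₃ hE₃
  obtain ⟨h1a, h1b⟩ := M.mem A₁ γ₁ hE₁ hγ₁
  obtain ⟨h3a, h3b⟩ := M.mem A₃ γ₃ hE₃ hγ₃
  refine ⟨γ₁, γ₃, tv₀ i₀, isTransvection_tv₀ i₀, h1a, h1b, h3a, h3b, ?_, ?_, ?_, ?_⟩
  · rw [M.conj A₁ A₃ γ₁ γ₃ hE₁ hE₃ hγ₁ hγ₃]
    intro h
    have h1 := (hA₁.symm.trans h).trans hA₃
    have h3 := cong_alt h1 (fun x => sympForm_self x) (Pi.single (Sum.inl i₀) 1)
    rw [dot_Je, sympForm_self] at h3
    simp at h3
  · intro γ hγ hγ2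
    obtain ⟨A, hE, hR⟩ := M.surj γ hγ hγ2
    rw [M.conj A₁ A γ₁ γ hE₁ hE hγ₁ hR, M.conj A₃ A γ₃ γ hE₃ hE hγ₃ hR]
    have hc : Fintype.card (Fin n) = 2 * m := by simp [hnm]
    have hAs : (A : Matrix (Fin n) (Fin n) K)ᵀ = A := by
      obtain ⟨ε, hε, hAε⟩ := hE
      rcases hε with rfl | rfl
      · rwa [one_smul] at hAε
      · rwa [CharTwo.neg_eq, one_smul] at hAε
    by_cases halt : ∃ x : Fin n → K, x ⬝ᵥ ((A : Matrix (Fin n) (Fin n) K) *ᵥ x) ≠ 0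
    · right
      exact hA₃.trans (cong_Je i₀ hAs (gl_det_ne A) hc halt).symm
    · left
      push Not at halt
      exact hA₁.trans (cong_J halt (gl_det_ne A) hc).symm
  · obtain ⟨e1⟩ := M.cent A₁ γ₁ hE₁ hγ₁
    obtain ⟨e2⟩ := Cong.proj hA₁
    obtain ⟨e3⟩ := proj_J2 (K := K) (m := m) (by omega)
    exact ⟨e1.trans (e2.trans e3)⟩
  · obtain ⟨e1⟩ := M.cent A₃ γ₃ hE₃ hγ₃
    obtain ⟨e2⟩ := Cong.proj hA₃
    obtain ⟨e3⟩ := proj_Je (K := K) i₀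
    exact ⟨e1.trans (e2.trans e3)⟩

end even

end Cfsg.Agent.Lib.GraphInv.Model
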