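/-
Determinants and multipliers of similitudes over a finite field.
-/
import Mathlib
import Cfsg.Agent.Lib.GraphInv.Model
import Cfsg.Agent.Lib.SpCount.Recip
import Cfsg.Agent.Lib.KS71.ClassSplit

set_option autoImplicit false
set_option linter.unusedSimpArgs false
set_option linter.unusedSectionVars false
set_option linter.unusedVariables false

namespace Cfsg.Agent.Lib.GraphInv.DetSim

open Matrix Module
open scoped MatrixGroups
open Cfsg.Agent.Lib.GraphInv.Sim Cfsg.Agent.Lib.GraphInv.Forms Cfsg.Agent.Lib.GraphInv.Char2A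
  Cfsg.Agent.Lib.GraphInv.Char2B Cfsg.Agent.Lib.GraphInv.Char2C Cfsg.Agent.Lib.GraphInv.Model

variable {ι : Type} [Fintype ι] [DecidableEq ι] {K : Type*} [Field K] {m : ℕ}

theorem det_sq_of_sim {A k : Matrix ι ι K} {d : K} (hA : A.det ≠ 0) (h : kᵀ * A * k = d • A) :
    k.det ^ 2 = d ^ Fintype.card ι := by
  have h1 := congrArg Matrix.det h
  rw [Matrix.det_mul, Matrix.det_mul, Matrix.det_transpose, Matrix.det_smul] at h1
  apply mul_right_cancel₀ hA
  rw [← h1]
  ring

/-- The diagonal similitude of the standard alternating matrix. -/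
def dJ (d : K) : Matrix (Fin m ⊕ Fin m) (Fin m ⊕ Fin m) K := fromBlocks (d • 1) 0 0 1

theorem dJ_sim (d : K) : (dJ d)ᵀ * Matrix.J (Fin m) K * dJ d = d • Matrix.J (Fin m) K := by
  simp only [dJ, Matrix.J, Matrix.fromBlocks_transpose, Matrix.fromBlocks_multiply, Matrix.fromBlocks_smul]
  simp

theorem det_dJ (d : K) : (dJ (m := m) d).det = d ^ m := by
  rw [dJ, Matrix.det_fromBlocks_zero₂₁, Matrix.det_one, mul_one, Matrix.det_smul, Matrix.det_one, mul_one]
  simp

theorem det_of_J [Fintype K] {k : Matrix (Fin m ⊕ Fin m) (Fin m ⊕ Fin m) K} {d : Kˣ}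
    (h : kᵀ * Matrix.J (Fin m) K * k = (d : K) • Matrix.J (Fin m) K) : k.det = (d : K) ^ m := by
  set D := dJ (m := m) ((d⁻¹ : Kˣ) : K) with hD
  have h1 : (k * D) ∈ Matrix.symplecticGroup (Fin m) K := by
    rw [mem_sp_iff, Matrix.transpose_mul]
    calc Dᵀ * kᵀ * Matrix.J (Fin m) K * (k * D) = Dᵀ * (kᵀ * Matrix.J (Fin m) K * k) * D := by simp only [Matrix.mul_assoc]
      _ = _ := by
        rw [h, Matrix.mul_smul, Matrix.smul_mul, hD, dJ_sim, smul_smul, Units.mul_inv, one_smul]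
  have h2 := Cfsg.Agent.Lib.SpCount.Recip.det_sp ⟨_, h1⟩
  simp only at h2
  rw [Matrix.det_mul, hD, det_dJ] at h2
  have h3 : (d : K) ^ m * ((d⁻¹ : Kˣ) : K) ^ m = 1 := by
    rw [← mul_pow, Units.mul_inv, one_pow]
  calc k.det = k.det * (((d⁻¹ : Kˣ) : K) ^ m * (d : K) ^ m) := by
        rw [mul_comm (((d⁻¹ : Kˣ) : K) ^ m), h3, mul_one]
    _ = (k.det * ((d⁻¹ : Kˣ) : K) ^ m) * (d : K) ^ m := by ring
    _ = _ := by rw [h2, one_mul]

/-- The determinant of a similitude of an alternating matrix. -/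
theorem det_of_alt [Fintype K] {A : Matrix ι ι K} (hA : ∀ x : ι → K, x ⬝ᵥ (A *ᵥ x) = 0) (hd : A.det ≠ 0)
    (hc : Fintype.card ι = 2 * m) {k : Matrix ι ι K} {d : Kˣ} (h : kᵀ * A * k = (d : K) • A) :
    k.det = (d : K) ^ m := by
  obtain ⟨P, P', c, h1, h2, h3⟩ := cong_J hA hd hc
  have h4 := simG_rect_aux h1 h2 h3 h
  rw [← det_of_J h4, Matrix.det_conj_of_mul_eq_one h2 h1]

/-- All multipliers occur for alternating matrices. -/
theorem exists_sim_alt {A : Matrix ι ι K} (hA : ∀ x : ι → K, x ⬝ᵥ (A *ᵥ x) = 0) (hd : A.det ≠ 0)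
    (hc : Fintype.card ι = 2 * m) (d : Kˣ) :
    ∃ k : GL ι K, (k : Matrix ι ι K)ᵀ * A * (k : Matrix ι ι K) = (d : K) • A := by
  obtain ⟨P, P', c, h1, h2, h3⟩ := cong_J hA hd hc
  have h4 : P'ᵀ * Matrix.J (Fin m) K * P' = ((c⁻¹ : Kˣ) : K) • A := by
    have e2 : P'ᵀ * Pᵀ = 1 := by rw [← Matrix.transpose_mul, h1, Matrix.transpose_one]
    calc P'ᵀ * Matrix.J (Fin m) K * P' = ((c⁻¹ : Kˣ) : K) • (P'ᵀ * ((c : K) • Matrix.J (Fin m) K) * P') := by
          rw [Matrix.mul_smul, Matrix.smul_mul, smul_smul, Units.inv_mul, one_smul]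
      _ = ((c⁻¹ : Kˣ) : K) • ((P'ᵀ * Pᵀ) * A * (P * P')) := by
          rw [← h3]
          simp only [Matrix.mul_assoc]
      _ = _ := by rw [e2, h1, Matrix.one_mul, Matrix.mul_one]
  have h5 := simG_rect_aux (A := Matrix.J (Fin m) K) (B := A) (P := P') (P' := P) (c := c⁻¹) h2 h1 h4
    (k := dJ (d : K)) (d := d) (dJ_sim _)
  have hdet : (P * dJ (m := m) (d : K) * P').det ≠ 0 := by
    rw [Matrix.det_conj_of_mul_eq_one h1 h2, det_dJ]
    exact pow_ne_zero _ d.ne_zero
  exact ⟨Matrix.GeneralLinearGroup.mkOfDetNeZero _ hdet, h5⟩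

section finite

variable [Fintype K]

/-- All multipliers occur for symmetric matrices in even dimension. -/
theorem exists_sim_sym (h2 : (2 : K) ≠ 0) {A : Matrix ι ι K} (hS : Aᵀ = A) (hd : A.det ≠ 0)
    (hc : Even (Fintype.card ι)) (d : Kˣ) :
    ∃ k : GL ι K, (k : Matrix ι ι K)ᵀ * A * (k : Matrix ι ι K) = (d : K) • A := by
  have hS' : ((d : K) • A)ᵀ = (d : K) • A := by rw [Matrix.transpose_smul, hS]
  have hd' : ((d : K) • A).det ≠ 0 := by
    rw [Matrix.det_smul]
    exact mul_ne_zero (pow_ne_zero _ d.ne_zero) hd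
  obtain ⟨u, hu, hdu⟩ := gram_det_finBasis A
  obtain ⟨w, hw, hdw⟩ := gram_det_finBasis ((d : K) • A)
  obtain ⟨ψ, hψ⟩ := Cfsg.Agent.Lib.QuadDisc.Classify.exists_isometry h2 (Matrix.toBilin' ((d : K) • A)) (Matrix.toBilin' A)
    (bf_nondeg hd') (bf_nondeg hd) (bf_symm hS') (bf_symm hS) rfl (by
      rw [hdu, hdw, Matrix.det_smul]
      obtain ⟨t, ht⟩ := hc
      refine ⟨w * u * A.det * (d : K) ^ t, ?_⟩
      rw [ht, pow_add]
      ring)
  let P : Matrix ι ι K := LinearMap.toMatrix' (ψ : (ι → K) →ₗ[K] (ι → K))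
  let P' : Matrix ι ι K := LinearMap.toMatrix' (ψ.symm : (ι → K) →ₗ[K] (ι → K))
  have hP : ∀ x, P *ᵥ x = ψ x := fun x => LinearMap.toMatrix'_mulVec _ x
  have hP' : ∀ x, P' *ᵥ x = ψ.symm x := fun x => LinearMap.toMatrix'_mulVec _ x
  have h1 : P * P' = 1 := by
    apply Matrix.mulVec_injective
    funext x
    rw [← Matrix.mulVec_mulVec, hP', hP, Matrix.one_mulVec]
    simp
  have h3 : P' * P = 1 := by
    apply Matrix.mulVec_injective
    funext x
    rw [← Matrix.mulVec_mulVec, hP, hP', Matrix.one_mulVec]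
    simp
  refine ⟨⟨P, P', h1, h3⟩, ?_⟩
  show Pᵀ * A * P = _
  refine eq_of_dot fun a b => ?_
  rw [← dot_conj, hP, hP]
  have := hψ a b
  rw [Matrix.toBilin'_apply', Matrix.toBilin'_apply'] at this
  exact this

end finite

/-- Reflections: an isometry of determinant `-1`. -/
theorem exists_refl (h2 : (2 : K) ≠ 0) {A : Matrix ι ι K} (hS : Aᵀ = A) (hA0 : A ≠ 0) :
    ∃ k : GL ι K, (k : Matrix ι ι K)ᵀ * A * (k : Matrix ι ι K) = A ∧ (k : Matrix ι ι K).det = -1 := by
  obtain ⟨v, hv⟩ : ∃ v : ι → K, v ⬝ᵥ (A *ᵥ v) ≠ 0 := by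
    by_contra hcon
    push Not at hcon
    exact hA0 (eq_zero_of_quad h2 hS hcon)
  set s := v ⬝ᵥ (A *ᵥ v) with hs
  set a : ι → K := A *ᵥ v with ha
  let t : K := -2 / s
  let R : Matrix ι ι K := 1 + Matrix.vecMulVec (t • v) a
  have hsym : ∀ x y : ι → K, x ⬝ᵥ (A *ᵥ y) = y ⬝ᵥ (A *ᵥ x) := by
    intro x y
    rw [Matrix.dotProduct_mulVec, dotProduct_comm, ← Matrix.mulVec_transpose, hS]
  have hR : ∀ x, R *ᵥ x = x + (t * (a ⬝ᵥ x)) • v := by
    intro x
    rw [Matrix.add_mulVec, Matrix.one_mulVec, Matrix.vecMulVec_mulVec, op_smul_eq_smul, smul_smul, mul_comm]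
  have hax : ∀ x, a ⬝ᵥ x = x ⬝ᵥ (A *ᵥ v) := fun x => dotProduct_comm _ _
  have hav : a ⬝ᵥ v = s := by rw [hax]
  have hdet : R.det = -1 := by
    show (1 + Matrix.vecMulVec (t • v) a).det = -1
    rw [Matrix.vecMulVec_eq (ι := Unit), Matrix.det_one_add_replicateCol_mul_replicateRow, dotProduct_smul, hav,
      smul_eq_mul]
    simp only [t]
    field_simp
    ring
  have hdet0 : R.det ≠ 0 := by
    rw [hdet]
    simp
  refine ⟨Matrix.GeneralLinearGroup.mkOfDetNeZero R hdet0, ?_, hdet⟩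
  show Rᵀ * A * R = A
  refine eq_of_dot fun x y => ?_
  rw [← dot_conj, hR, hR]
  simp only [Matrix.mulVec_add, Matrix.mulVec_smul, dotProduct_add, add_dotProduct, dotProduct_smul, smul_dotProduct,
    smul_eq_mul]
  rw [hax y, hax x, hsym v y, ← hs]
  have h3 : t * s = -2 := by
    simp only [t]
    field_simp
  linear_combination (y ⬝ᵥ a) * (x ⬝ᵥ a) * t * h3

/-! ### The multiplier -/

section mult

/-- The multiplier of a similitude. -/
noncomputable def multHom (A : Matrix ι ι K) (hA : A ≠ 0) : ↥(simG A) →* Kˣ where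
  toFun k := k.2.choose
  map_one' := by
    have h1 := (one_mem (simG A) : (1 : GL ι K) ∈ simG A).choose_spec
    have h2 : (((one_mem (simG A) : (1 : GL ι K) ∈ simG A).choose : Kˣ) : K) • A = (1 : K) • A := by
      rw [← h1]
      simp
    have h3 : (((one_mem (simG A) : (1 : GL ι K) ∈ simG A).choose : Kˣ) : K) - 1 = 0 := by
      have h4 : ((((one_mem (simG A) : (1 : GL ι K) ∈ simG A).choose : Kˣ) : K) - 1) • A = 0 := by
        rw [sub_smul, h2, sub_self]
      exact (smul_eq_zero.1 h4).resolve_right hA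
    exact Units.ext (sub_eq_zero.1 h3)
  map_mul' a b := by
    have ha := a.2.choose_spec
    have hb := b.2.choose_spec
    have hab := (a * b).2.choose_spec
    show (a * b).2.choose = a.2.choose * b.2.choose
    generalize a.2.choose = ca at ha ⊢
    generalize b.2.choose = cb at hb ⊢
    generalize (a * b).2.choose = cab at hab ⊢
    apply Units.ext
    have h1 : (cab : K) • A = ((ca * cb : Kˣ) : K) • A := by
      rw [← hab]
      show (((a.1 * b.1 : GL ι K) : Matrix ι ι K))ᵀ * A * ((a.1 * b.1 : GL ι K) : Matrix ι ι K) = _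
      rw [Units.val_mul, Matrix.transpose_mul, Units.val_mul]
      calc (b.1 : Matrix ι ι K)ᵀ * (a.1 : Matrix ι ι K)ᵀ * A * ((a.1 : Matrix ι ι K) * b.1)
          = (b.1 : Matrix ι ι K)ᵀ * ((a.1 : Matrix ι ι K)ᵀ * A * a.1) * b.1 := by simp only [Matrix.mul_assoc]
        _ = _ := by
          rw [ha, Matrix.mul_smul, Matrix.smul_mul, hb, smul_smul]
    have h3 : (cab : K) - ((ca * cb : Kˣ) : K) = 0 := by
      have h4 : ((cab : K) - ((ca * cb : Kˣ) : K)) • A = 0 := by
        rw [sub_smul, h1, sub_self]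
      exact (smul_eq_zero.1 h4).resolve_right hA
    exact sub_eq_zero.1 h3

theorem multHom_spec (A : Matrix ι ι K) (hA : A ≠ 0) (k : ↥(simG A)) :
    ((k.1 : GL ι K) : Matrix ι ι K)ᵀ * A * ((k.1 : GL ι K) : Matrix ι ι K) = ((multHom A hA k : Kˣ) : K) • A :=
  k.2.choose_spec

theorem multHom_eq (A : Matrix ι ι K) (hA : A ≠ 0) (k : ↥(simG A)) {c : Kˣ}
    (h : ((k.1 : GL ι K) : Matrix ι ι K)ᵀ * A * ((k.1 : GL ι K) : Matrix ι ι K) = (c : K) • A) : multHom A hA k = c := by
  apply Units.ext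
  have h1 := multHom_spec A hA k
  rw [h] at h1
  have h4 : ((c : K) - ((multHom A hA k : Kˣ) : K)) • A = 0 := by
    rw [sub_smul, h1, sub_self]
  exact (sub_eq_zero.1 ((smul_eq_zero.1 h4).resolve_right hA)).symm

variable [Fintype K]

/-- When all multipliers occur, the projective similarity group has the order of the isometry group. -/
theorem card_proj (A : Matrix ι ι K) (hA : A ≠ 0) [Nonempty ι]
    (hs : ∀ d : Kˣ, ∃ k : GL ι K, (k : Matrix ι ι K)ᵀ * A * (k : Matrix ι ι K) = (d : K) • A) :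
    Nat.card (Cfsg.projQuot (simG A)) = Nat.card (isoG A) := by
  classical
  have hfin : Finite (GL ι K) := inferInstance
  have hmult : Function.Surjective (multHom A hA) := by
    intro d
    obtain ⟨k, hk⟩ := hs d
    exact ⟨⟨k, ⟨d, hk⟩⟩, multHom_eq A hA _ hk⟩
  -- the order of the similarity group through the multiplier
  have h1 : Nat.card (simG A) = Nat.card (multHom A hA).ker * Nat.card Kˣ := by
    have := Subgroup.card_eq_card_quotient_mul_card_subgroup (multHom A hA).ker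
    rw [this, Nat.card_congr (QuotientGroup.quotientKerEquivOfSurjective _ hmult).toEquiv, mul_comm]
  have hker : Nat.card (multHom A hA).ker = Nat.card (isoG A) := by
    refine Nat.card_congr
      { toFun := fun k => ⟨k.1.1, ?_⟩
        invFun := fun k => ⟨⟨k.1, isoG_le_simG A k.2⟩, ?_⟩
        left_inv := fun k => rfl
        right_inv := fun k => rfl }
    · have h2 := multHom_spec A hA k.1
      have h3 : multHom A hA k.1 = 1 := k.2
      rw [h3, Units.val_one, one_smul] at h2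
      exact h2
    · show multHom A hA _ = 1
      refine multHom_eq A hA _ ?_
      rw [Units.val_one, one_smul]
      exact k.2
  have h3 : Nat.card ((Cfsg.Geo.scalars ι K).subgroupOf (simG A)) = Nat.card Kˣ := by
    obtain ⟨i₀⟩ := ‹Nonempty ι›
    refine Nat.card_congr (Equiv.ofBijective
      (fun c : Kˣ => (⟨⟨Units.map (Matrix.scalar ι : K →+* Matrix ι ι K).toMonoidHom c, scalars_le_simG A ⟨c, rfl⟩⟩, ⟨c, rfl⟩⟩ :
        ((Cfsg.Geo.scalars ι K).subgroupOf (simG A)))) ⟨?_, ?_⟩).symm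
    · intro a b hab
      have h4 := congrArg (fun z : ((Cfsg.Geo.scalars ι K).subgroupOf (simG A)) => ((z.1.1 : GL ι K) : Matrix ι ι K) i₀ i₀) hab
      simp [Matrix.scalar_apply] at h4
      exact Units.ext h4
    · rintro ⟨⟨k, hk⟩, ⟨c, hc⟩⟩
      refine ⟨c, ?_⟩
      apply Subtype.ext
      apply Subtype.ext
      exact hc
  have h4 := Subgroup.card_eq_card_quotient_mul_card_subgroup ((Cfsg.Geo.scalars ι K).subgroupOf (simG A))
  rw [h3, h1, hker] at h4
  have h5 : 0 < Nat.card Kˣ := Nat.card_pos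
  exact (Nat.eq_of_mul_eq_mul_right h5 h4).symm

end mult

end Cfsg.Agent.Lib.GraphInv.DetSim
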