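/-
Orders: the projective similarity groups of symmetric and of alternating matrices are different;
determinants of similitudes; an index computation in cyclic groups.
-/
import Mathlib
import Cfsg.Agent.Lib.GraphInv.DetSim
import Cfsg.Agent.S0245
import Cfsg.Agent.S0287
import Cfsg.Agent.S0288

set_option autoImplicit false
set_option linter.unusedSimpArgs false
set_option linter.unusedSectionVars false
set_option linter.unusedVariables false

namespace Cfsg.Agent.Lib.GraphInv.Orders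

open Matrix Module
open scoped MatrixGroups
open Cfsg.Agent.Lib.GraphInv.Sim Cfsg.Agent.Lib.GraphInv.Forms Cfsg.Agent.Lib.GraphInv.Char2A
  Cfsg.Agent.Lib.GraphInv.Model Cfsg.Agent.Lib.GraphInv.DetSim

variable {ι : Type} [Fintype ι] [DecidableEq ι] {K : Type*} [Field K] {m : ℕ}

theorem isoG_eq_iso {Q : (ι → K) → K} {G : Matrix ι ι K} (h2 : (2 : K) ≠ 0) (hS : Gᵀ = G)
    (hQ : ∀ v, v ⬝ᵥ (G *ᵥ v) = 2 * Q v) : isoG G = Cfsg.isometryGroup K Q := by
  ext k
  constructor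
  · intro h v _
    have h1 := hQ ((k : Matrix ι ι K) *ᵥ v)
    rw [dot_conj, mem_isoG.1 h, hQ] at h1
    exact (mul_left_cancel₀ h2 h1).symm
  · intro h
    have h0 : ∀ v, Q ((k : Matrix ι ι K) *ᵥ v) = Q v := fun v => h v 0
    have hM : (k : Matrix ι ι K)ᵀ * G * (k : Matrix ι ι K) - G = 0 := by
      refine eq_zero_of_quad h2 ?_ ?_
      · rw [Matrix.transpose_sub, Matrix.transpose_mul, Matrix.transpose_mul, Matrix.transpose_transpose, hS,
          Matrix.mul_assoc]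
      · intro v
        rw [Matrix.sub_mulVec, dotProduct_sub, ← dot_conj, hQ, h0, hQ, sub_self]
    exact sub_eq_zero.1 hM

/-- Arithmetic of the orders. -/
theorem order_ne {q t : ℕ} (hq : 3 ≤ q) (s : ℕ) (hs : s = q ^ (t + 1) - 1 ∨ s = q ^ (t + 1) + 1) :
    q ^ ((t + 1) ^ 2) * ∏ i ∈ Finset.range (t + 1), (q ^ (2 * (i + 1)) - 1) ≠
      2 * q ^ ((t + 1) * t) * s * ∏ i ∈ Finset.range t, (q ^ (2 * (i + 1)) - 1) := by
  intro h
  rw [Finset.prod_range_succ] at h
  set Pp := ∏ i ∈ Finset.range t, (q ^ (2 * (i + 1)) - 1) with hPp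
  have hPp0 : 0 < Pp := by
    apply Finset.prod_pos
    intro i _
    have : 1 < q ^ (2 * (i + 1)) := Nat.one_lt_pow (by omega) (by omega)
    omega
  set Q := q ^ (t + 1) with hQ
  have hQ3 : 3 ≤ Q := by
    calc 3 ≤ q := hq
      _ = q ^ 1 := (pow_one q).symm
      _ ≤ q ^ (t + 1) := Nat.pow_le_pow_right (by omega) (by omega)
  have e1 : q ^ ((t + 1) ^ 2) = q ^ ((t + 1) * t) * Q := by
    rw [hQ, ← pow_add]
    congr 1
    ring
  have e2 : q ^ (2 * (t + 1)) = Q ^ 2 := by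
    rw [hQ, ← pow_mul]
    congr 1
    ring
  rw [e1, e2] at h
  have hP0 : 0 < q ^ ((t + 1) * t) := pow_pos (by omega) _
  have h3 : Q * (Q ^ 2 - 1) = 2 * s := by
    have h4 : (q ^ ((t + 1) * t) * Pp) * (Q * (Q ^ 2 - 1)) = (q ^ ((t + 1) * t) * Pp) * (2 * s) := by
      calc (q ^ ((t + 1) * t) * Pp) * (Q * (Q ^ 2 - 1)) = q ^ ((t + 1) * t) * Q * (Pp * (Q ^ 2 - 1)) := by ring
        _ = 2 * q ^ ((t + 1) * t) * s * Pp := h
        _ = _ := by ring
    exact Nat.eq_of_mul_eq_mul_left (Nat.mul_pos hP0 hPp0) h4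
  obtain ⟨R, hR⟩ : ∃ R, Q = R + 3 := ⟨Q - 3, by omega⟩
  have e3 : Q ^ 2 - 1 = (R + 2) * (R + 4) := by
    rw [hR]
    apply Nat.sub_eq_of_eq_add
    ring
  rw [e3, hR] at h3
  rcases hs with hs | hs
  · rw [hR] at hs
    have e4 : s = R + 2 := by omega
    rw [e4] at h3
    nlinarith
  · rw [hR] at hs
    rw [hs] at h3
    nlinarith

section finite

variable [Fintype K]

theorem J_ne (hm : 1 ≤ m) : Matrix.J (Fin m) K ≠ 0 := by
  intro h
  have h1 := det_J_ne (F := K) m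
  rw [h] at h1
  haveI : Nonempty (Fin m ⊕ Fin m) := ⟨Sum.inl ⟨0, hm⟩⟩
  exact h1 Matrix.det_zero

theorem card_PGSp (hm : 1 ≤ m) :
    Nat.card (Cfsg.PGSp m K) = Fintype.card K ^ (m ^ 2) * ∏ i ∈ Finset.range m, (Fintype.card K ^ (2 * (i + 1)) - 1) := by
  rw [← Cfsg.Agent.S0245.result rfl m]
  obtain ⟨e⟩ := proj_J (F := K) m
  rw [← Nat.card_congr e.toEquiv]
  haveI : Nonempty (Fin m ⊕ Fin m) := ⟨Sum.inl ⟨0, hm⟩⟩
  rw [card_proj _ (J_ne hm) (exists_sim_alt (m := m) (fun x => Cfsg.Agent.Lib.Classical.SympForm.sympBilin_isAlt x)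
    (det_J_ne m) (by simp; omega))]
  exact Nat.card_congr (isoJ_equiv m K).toEquiv

theorem card_Gp (h2 : (2 : K) ≠ 0) (hm : 1 ≤ m) :
    Nat.card (Cfsg.projQuot (simG (Gp m K))) = 2 * Fintype.card K ^ (m * (m - 1)) * (Fintype.card K ^ m - 1) *
      ∏ i ∈ Finset.range (m - 1), (Fintype.card K ^ (2 * (i + 1)) - 1) := by
  rw [← Cfsg.Agent.S0287.result rfl m hm, ← isoG_eq_iso h2 (Gp_symm m) (quad_Gp m)]
  have hd : (Gp m K).det ≠ 0 := by
    rw [det_Gp]
    exact pow_ne_zero _ (by simp)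
  haveI : Nonempty (Fin m ⊕ Fin m) := ⟨Sum.inl ⟨0, hm⟩⟩
  have hne : Gp m K ≠ 0 := by
    intro h
    rw [h] at hd
    exact hd Matrix.det_zero
  exact card_proj _ hne (exists_sim_sym h2 (Gp_symm m) hd ⟨m, by simp⟩)

theorem card_Gm (h2 : (2 : K) ≠ 0) {ν : K} (hν : ¬ IsSquare ν) :
    Nat.card (Cfsg.projQuot (simG (Gm m K ν))) = 2 * Fintype.card K ^ ((m + 1) * m) * (Fintype.card K ^ (m + 1) + 1) *
      ∏ i ∈ Finset.range m, (Fintype.card K ^ (2 * (i + 1)) - 1) := by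
  have h1 : Nat.card (Cfsg.isometryGroup K (Cfsg.quadFormMinus m K 0 (-ν))) = _ :=
    Cfsg.Agent.S0288.result (F := K) rfl (m + 1) (by omega) 0 (-ν) (aniso hν)
  simp only [Nat.add_sub_cancel] at h1
  rw [← h1, ← isoG_eq_iso h2 (Gm_symm m ν) (quad_Gm m ν)]
  have hν0 : ν ≠ 0 := by
    rintro rfl
    exact hν ⟨0, by simp⟩
  have h4 : (4 : K) ≠ 0 := by
    have : (4 : K) = 2 * 2 := by norm_num
    rw [this]
    exact mul_ne_zero h2 h2
  have hd : (Gm m K ν).det ≠ 0 := by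
    rw [det_Gm]
    exact mul_ne_zero (pow_ne_zero _ (by simp)) (mul_ne_zero (neg_ne_zero.2 h4) hν0)
  haveI : Nonempty ((Fin m ⊕ Fin m) ⊕ Fin 2) := ⟨Sum.inr 0⟩
  have hne : Gm m K ν ≠ 0 := by
    intro h
    rw [h] at hd
    exact hd Matrix.det_zero
  exact card_proj _ hne (exists_sim_sym h2 (Gm_symm m ν) hd ⟨m + 1, by simp only [Fintype.card_sum, Fintype.card_fin]; omega⟩)

/-- The similarity group of a symmetric matrix is never the conformal symplectic group. -/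
theorem not_iso_of_symm (h2 : (2 : K) ≠ 0) {A : Matrix ι ι K} (hS : Aᵀ = A) (hd : A.det ≠ 0) {t : ℕ}
    (hc : Fintype.card ι = 2 * (t + 1)) :
    ¬ Nonempty (Cfsg.projQuot (simG A) ≃* Cfsg.PGSp (t + 1) K) := by
  classical
  rintro ⟨e⟩
  have hq3 : 3 ≤ Fintype.card K := by
    have h1 : 2 ≤ Fintype.card K := Fintype.one_lt_card
    by_contra hlt
    have h3 : Fintype.card K = 2 := by omega
    apply h2
    have := Nat.cast_card_eq_zero K
    rw [h3] at this
    exact_mod_cast this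
  have h1 := Nat.card_congr e.toEquiv
  rw [card_PGSp (by omega)] at h1
  obtain ⟨ν, hν⟩ := FiniteField.exists_nonsquare (F := K) (fun h => h2 (by
    have h3 := ringChar.Nat.cast_ringChar (R := K)
    rw [h] at h3
    exact_mod_cast h3))
  by_cases hsq : IsSquare (A.det * (-1) ^ (t + 1))
  · obtain ⟨e2⟩ := Cong.proj (cong_Gp h2 hS hd hc hsq)
    rw [Nat.card_congr e2.toEquiv, card_Gp h2 (by omega)] at h1
    simp only [Nat.add_sub_cancel] at h1
    exact order_ne hq3 _ (Or.inl rfl) h1.symm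
  · obtain ⟨e2⟩ := Cong.proj (cong_Gm h2 hS hd (by omega) hν hsq)
    rw [Nat.card_congr e2.toEquiv, card_Gm h2 hν] at h1
    exact order_ne hq3 _ (Or.inr rfl) h1.symm

end finite

section cyclic

variable {C : Type*} [CommGroup C] [IsCyclic C] [Finite C]

/-- The index of the subgroup generated by the `m`-th powers and an involution. -/
theorem index_sup_inv (z : C) (hz : orderOf z = 2) (m : ℕ) :
    ((powMonoidHom m : C →* C).range ⊔ Subgroup.zpowers z).index = Nat.gcd (2 * m) (Nat.card C) / 2 := by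
  have h1 : Nat.card (Subgroup.zpowers z) = 2 := by
    rw [Nat.card_zpowers, hz]
  have h2 : 2 ∣ Nat.card C := by
    rw [← hz]
    exact orderOf_dvd_natCard z
  obtain ⟨N, hN⟩ := h2
  have h3 := Cfsg.Agent.Lib.KS71.ClassSplit.subgroup_eq_range (Subgroup.zpowers z)
  rw [h1, hN, Nat.mul_div_cancel_left _ (by norm_num)] at h3
  rw [h3, Cfsg.Agent.Lib.KS71.ClassSplit.index_range_sup m N ⟨2, by rw [hN]; ring⟩, hN, Nat.gcd_mul_left,
    Nat.mul_div_cancel_left _ (by norm_num)]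

end cyclic

end Cfsg.Agent.Lib.GraphInv.Orders
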