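/-
The involutory graph automorphisms of `PSL_n(F)`: `gam A = conj A⁻¹ ∘ (inverse transpose)`.
-/
import Mathlib
import Cfsg.Agent.Lib.GraphInv.Model
import Cfsg.Agent.Lib.KS71.PSLCent

set_option autoImplicit false
set_option linter.unusedSimpArgs false
set_option linter.unusedSectionVars false
set_option linter.unusedVariables false

namespace Cfsg.Agent.Lib.GraphInv.PSLGam

open Matrix
open scoped MatrixGroups
open Cfsg.Agent.Lib.GraphInv.Sim Cfsg.Agent.Lib.GraphInv.Model
open Cfsg.Agent.Lib.KS71.PSLCore Cfsg.Agent.Lib.KS71.PSLAutGroup Cfsg.Agent.Lib.KS71.PSLTwist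
open Cfsg.Agent.Lib.KS71.PSLCent (conj_eq_one_iff mem_comap_iff dt)

universe u

variable {F : Type u} [Field F] {n : ℕ}

/-- The transpose in the general linear group. -/
def trGL (h : GL (Fin n) F) : GL (Fin n) F := (invTrGL h)⁻¹

theorem coe_trGL (h : GL (Fin n) F) : ((trGL h : GL (Fin n) F) : Matrix (Fin n) (Fin n) F) = (h : Matrix (Fin n) (Fin n) F)ᵀ := rfl

/-- The graph automorphism attached to a matrix. -/
noncomputable def gam (A : GL (Fin n) F) : MulAut (ProjectiveSpecialLinearGroup (Fin n) F) :=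
  conjHom A⁻¹ * autOf invTrS

theorem invTr_conjHom (g : GL (Fin n) F) :
    autOf invTrS * conjHom g = conjHom (invTrGL g) * (autOf invTrS : MulAut (ProjectiveSpecialLinearGroup (Fin n) F)) :=
  invTr_conj g

theorem gam_conj (h A : GL (Fin n) F) :
    conjHom h⁻¹ * gam A * conjHom h = gam (trGL h * A * h) := by
  unfold gam
  rw [mul_assoc, mul_assoc, invTr_conjHom, ← mul_assoc, ← mul_assoc, ← map_mul, ← map_mul]
  congr 2
  unfold trGL
  group

theorem gam_eq_iff (hn : 2 ≤ n) (A B : GL (Fin n) F) :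
    gam A = gam B ↔ ∃ c : Fˣ, (B : Matrix (Fin n) (Fin n) F) = (c : F) • (A : Matrix (Fin n) (Fin n) F) := by
  unfold gam
  rw [mul_left_inj]
  constructor
  · intro h
    have h1 : conjHom (B * A⁻¹) = 1 := by
      rw [map_mul, _root_.map_inv (conjHom (n := n) (F := F)) A, ← _root_.map_inv (conjHom (n := n) (F := F)) A, h,
        ← map_mul]
      simp
    obtain ⟨c, hc⟩ := (conj_eq_one_iff hn _).1 h1
    refine ⟨c, ?_⟩
    have h2 : B = sc n c * A := by
      rw [← hc]
      group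
    rw [h2, Units.val_mul, coe_sc, Matrix.smul_mul, Matrix.one_mul]
  · rintro ⟨c, hc⟩
    have h2 : B = sc n c * A := by
      apply Units.ext
      rw [hc, Units.val_mul, coe_sc, Matrix.smul_mul, Matrix.one_mul]
    have h3 : conjHom (sc n c) = 1 := (conj_eq_one_iff hn _).2 ⟨c, rfl⟩
    rw [h2, _root_.mul_inv_rev, map_mul, _root_.map_inv (conjHom (n := n) (F := F)) (sc n c), h3]
    simp

theorem comm_iff (hn : 2 ≤ n) (k A : GL (Fin n) F) :
    conjHom k * gam A = gam A * conjHom k ↔ k ∈ simG (A : Matrix (Fin n) (Fin n) F) := by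
  have h1 : conjHom k * gam A = gam A * conjHom k ↔ gam A = conjHom k⁻¹ * gam A * conjHom k := by
    rw [_root_.map_inv]
    constructor
    · intro h
      rw [mul_assoc, ← h, ← mul_assoc, inv_mul_cancel, one_mul]
    · intro h
      calc conjHom k * gam A = conjHom k * ((conjHom k)⁻¹ * gam A * conjHom k) := by rw [← h]
        _ = gam A * conjHom k := by group
  rw [h1, gam_conj, gam_eq_iff hn, mem_simG]
  have e : ∀ c : Fˣ, (((trGL k * A * k : GL (Fin n) F) : Matrix (Fin n) (Fin n) F) = (c : F) • (A : Matrix (Fin n) (Fin n) F)) ↔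
      ((k : Matrix (Fin n) (Fin n) F)ᵀ * (A : Matrix (Fin n) (Fin n) F) * (k : Matrix (Fin n) (Fin n) F) = (c : F) • (A : Matrix (Fin n) (Fin n) F)) := by
    intro c
    rw [Units.val_mul, Units.val_mul, coe_trGL]
  simp only [e]

theorem comap_cent (hn : 2 ≤ n) (A : GL (Fin n) F) :
    (Subgroup.centralizer {gam A}).comap (conjHom (n := n) (F := F)) = simG (A : Matrix (Fin n) (Fin n) F) := by
  ext k
  rw [mem_comap_iff, ← comm_iff hn]
  rfl

theorem isConj_iff (hn : 2 ≤ n) (A B : GL (Fin n) F) :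
    Cfsg.IsConjUnder (Cfsg.inndiagPSL n F) (gam A) (gam B) ↔
      Cong (A : Matrix (Fin n) (Fin n) F) (B : Matrix (Fin n) (Fin n) F) := by
  constructor
  · rintro ⟨δ, hδ, e⟩
    obtain ⟨k, rfl⟩ := mem_inndiag_iff.1 hδ
    have e1 : gam B = gam (trGL k⁻¹ * A * k⁻¹) := by
      rw [← gam_conj, e, inv_inv, _root_.map_inv]
      rfl
    obtain ⟨c, hc⟩ := (gam_eq_iff hn _ _).1 e1
    refine ⟨((k⁻¹ : GL (Fin n) F) : Matrix (Fin n) (Fin n) F), ((k : GL (Fin n) F) : Matrix (Fin n) (Fin n) F), c,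
      gl_inv_mul' k, gl_mul_inv' k, ?_⟩
    rw [Units.val_mul, Units.val_mul, coe_trGL] at hc
    exact hc
  · rintro ⟨P, P', c, h1, h2, h3⟩
    let h : GL (Fin n) F := ⟨P, P', h1, h2⟩
    have e1 : gam (trGL h * A * h) = gam B := by
      refine ((gam_eq_iff hn _ _).2 ⟨c⁻¹, ?_⟩)
      rw [Units.val_mul, Units.val_mul, coe_trGL]
      show ((B : GL (Fin n) F) : Matrix (Fin n) (Fin n) F) = ((c⁻¹ : Fˣ) : F) • (Pᵀ * (A : Matrix (Fin n) (Fin n) F) * P)
      rw [h3, smul_smul, Units.inv_mul, one_smul]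
    refine ⟨conjHom h⁻¹, mem_inndiag_iff.2 ⟨h⁻¹, rfl⟩, ?_⟩
    rw [← e1, ← gam_conj]
    simp

theorem graph_iff (hn : 3 ≤ n) (β : MulAut (ProjectiveSpecialLinearGroup (Fin n) F)) :
    Cfsg.IsGraphAutClassPSL β ↔ ∃ A : GL (Fin n) F, β = gam A := by
  constructor
  · rintro ⟨-, δ, γ, hδ, hγ, rfl⟩
    obtain ⟨g, rfl⟩ := eq_conj_of_isInnerDiag hδ
    rw [eq_invTr_of_isInvTr hγ]
    refine ⟨g⁻¹, ?_⟩
    unfold gam
    rw [inv_inv]
    rfl
  · rintro ⟨A, rfl⟩
    exact ⟨hn, _, _, isInnerDiag _, isInvTr, rfl⟩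

theorem gam_ne_one (hn : 3 ≤ n) (A : GL (Fin n) F) : gam A ≠ 1 := by
  intro h
  have h1 := semi_ne_dual hn (1 : GL (Fin n) F) A⁻¹ (RingEquiv.refl F) (RingEquiv.refl F)
  apply h1
  have e1 : autOf (conjS (1 : GL (Fin n) F)) = 1 := conj_one
  have e2 : autOf (fieldS (RingEquiv.refl F)) = (1 : MulAut (ProjectiveSpecialLinearGroup (Fin n) F)) := field_one
  rw [e1, e2]
  have e3 : autOf (conjS A⁻¹) * autOf invTrS = (1 : MulAut (ProjectiveSpecialLinearGroup (Fin n) F)) := h
  rw [mul_one, mul_one, e3]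

theorem gam_sq (A : GL (Fin n) F) :
    gam A * gam A = conjHom (A⁻¹ * invTrGL A⁻¹) := by
  unfold gam
  rw [mul_assoc, ← mul_assoc (autOf invTrS), invTr_conjHom, mul_assoc, invTr_sq, mul_one, map_mul]

theorem order_iff (hn : 3 ≤ n) (A : GL (Fin n) F) : orderOf (gam A) = 2 ↔ Eps A := by
  have hn2 : 2 ≤ n := by omega
  have hsq : gam A ^ 2 = 1 ↔ Eps A := by
    rw [sq, gam_sq]
    constructor
    · intro h
      obtain ⟨c, hc⟩ := (conj_eq_one_iff hn2 _).1 h
      have h1 : (A : Matrix (Fin n) (Fin n) F)ᵀ = (c : F) • (A : Matrix (Fin n) (Fin n) F) := by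
        have h2 : invTrGL A⁻¹ = A * sc n c := by
          calc invTrGL A⁻¹ = A * (A⁻¹ * invTrGL A⁻¹) := by group
            _ = _ := by rw [hc]
        have h3 := congrArg (fun z : GL (Fin n) F => (z : Matrix (Fin n) (Fin n) F)) h2
        simp only [coe_invTrGL, inv_inv, Units.val_mul, coe_sc, Matrix.mul_smul, Matrix.mul_one] at h3
        exact h3
      have h2 : ((c : F) * c - 1) • (A : Matrix (Fin n) (Fin n) F) = 0 := by
        have h3 := congrArg Matrix.transpose h1
        rw [Matrix.transpose_transpose, Matrix.transpose_smul, h1, smul_smul] at h3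
        rw [sub_smul, one_smul, ← h3, sub_self]
      have hA0 : (A : Matrix (Fin n) (Fin n) F) ≠ 0 := by
        intro h0
        have h9 := gl_det_ne A
        rw [h0] at h9
        haveI : Nonempty (Fin n) := ⟨⟨0, by omega⟩⟩
        exact h9 Matrix.det_zero
      have h3 : (c : F) * c - 1 = 0 := (smul_eq_zero.1 h2).resolve_right hA0
      have h4 : ((c : F) - 1) * ((c : F) + 1) = 0 := by linear_combination h3
      refine ⟨c, ?_, h1⟩
      rcases mul_eq_zero.1 h4 with h5 | h5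
      · exact Or.inl (sub_eq_zero.1 h5)
      · exact Or.inr (eq_neg_of_add_eq_zero_left h5)
    · rintro ⟨ε, hε, h1⟩
      have hε0 : ε ≠ 0 := by
        rcases hε with rfl | rfl <;> simp
      refine (conj_eq_one_iff hn2 _).2 ⟨Units.mk0 ε hε0, ?_⟩
      apply Units.ext
      rw [Units.val_mul, coe_invTrGL, inv_inv, h1, coe_sc, Matrix.mul_smul, gl_inv_mul']
      rfl
  constructor
  · intro h
    have h1 := pow_orderOf_eq_one (gam A)
    rw [h] at h1
    exact hsq.1 h1
  · intro h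
    exact orderOf_eq_prime (hsq.2 h) (gam_ne_one hn A)

/-- The centraliser. -/
theorem cent_iso (hn : 2 ≤ n) (A : GL (Fin n) F) :
    Nonempty (↥(Cfsg.inndiagPSL n F ⊓ Subgroup.centralizer {gam A}) ≃* Cfsg.projQuot (simG (A : Matrix (Fin n) (Fin n) F))) := by
  have hmem : ∀ k : ↥(simG (A : Matrix (Fin n) (Fin n) F)),
      conjHom k.1 ∈ Cfsg.inndiagPSL n F ⊓ Subgroup.centralizer {gam A} := by
    intro k
    refine ⟨mem_inndiag_iff.2 ⟨k.1, rfl⟩, ?_⟩
    have : k.1 ∈ (Subgroup.centralizer {gam A}).comap (conjHom (n := n) (F := F)) := by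
      rw [comap_cent hn]
      exact k.2
    exact this
  let f : ↥(simG (A : Matrix (Fin n) (Fin n) F)) →* ↥(Cfsg.inndiagPSL n F ⊓ Subgroup.centralizer {gam A}) :=
    ((conjHom (n := n) (F := F)).comp (simG (A : Matrix (Fin n) (Fin n) F)).subtype).codRestrict _ hmem
  have hf : Function.Surjective f := by
    rintro ⟨δ, hδ₁, hδ₂⟩
    obtain ⟨k, rfl⟩ := mem_inndiag_iff.1 hδ₁
    have h1 : k ∈ (Subgroup.centralizer {gam A}).comap (conjHom (n := n) (F := F)) := hδ₂
    rw [comap_cent hn] at h1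
    exact ⟨⟨k, h1⟩, Subtype.ext rfl⟩
  have hker : f.ker = (QuotientGroup.mk' ((Cfsg.Geo.scalars (Fin n) F).subgroupOf (simG (A : Matrix (Fin n) (Fin n) F)))).ker := by
    rw [QuotientGroup.ker_mk']
    ext k
    rw [MonoidHom.mem_ker, Subgroup.mem_subgroupOf, Cfsg.Geo.mem_scalars_iff]
    constructor
    · intro h
      have h1 : conjHom k.1 = 1 := congrArg Subtype.val h
      obtain ⟨c, hc⟩ := (conj_eq_one_iff hn _).1 h1
      exact ⟨c, by rw [hc, coe_sc]⟩
    · rintro ⟨c, hc⟩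
      apply Subtype.ext
      refine (conj_eq_one_iff hn _).2 ⟨c, ?_⟩
      apply Units.ext
      show ((k.1 : GL (Fin n) F) : Matrix (Fin n) (Fin n) F) = _
      rw [hc, coe_sc]
  exact iso_of_same_ker f _ hf (QuotientGroup.mk'_surjective _) hker

/-- The abstract model for `PSL_n(F)`. -/
theorem model (hn : 3 ≤ n) : GModel F n (Cfsg.inndiagPSL n F) Cfsg.IsGraphAutClassPSL (fun A x => x = gam A) where
  ex A _ := ⟨_, rfl⟩
  mem A x hE hR := by
    subst hR
    exact ⟨(graph_iff hn _).2 ⟨A, rfl⟩, (order_iff hn A).2 hE⟩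
  surj x hx hx2 := by
    obtain ⟨A, rfl⟩ := (graph_iff hn _).1 hx
    exact ⟨A, (order_iff hn A).1 hx2, rfl⟩
  conj A B x y hA hB hx hy := by
    subst hx hy
    exact isConj_iff (by omega) A B
  cent A x hA hx := by
    subst hx
    exact cent_iso (by omega) A

end Cfsg.Agent.Lib.GraphInv.PSLGam
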