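/-
The number of `PSL`-classes in the `PGL`-class of an involutory graph automorphism.
-/
import Mathlib
import Cfsg.Agent.Lib.GraphInv.Orders
import Cfsg.Agent.Lib.GraphInv.PSLGam

set_option autoImplicit false
set_option linter.unusedSimpArgs false
set_option linter.unusedSectionVars false
set_option linter.unusedVariables false

namespace Cfsg.Agent.Lib.GraphInv.PSLCount

open Matrix
open scoped MatrixGroups
open Cfsg.Agent.Lib.GraphInv.Sim Cfsg.Agent.Lib.GraphInv.Forms Cfsg.Agent.Lib.GraphInv.Char2A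
  Cfsg.Agent.Lib.GraphInv.Model Cfsg.Agent.Lib.GraphInv.DetSim Cfsg.Agent.Lib.GraphInv.Orders
  Cfsg.Agent.Lib.GraphInv.PSLGam
open Cfsg.Agent.Lib.KS71.PSLCore Cfsg.Agent.Lib.KS71.PSLAutGroup Cfsg.Agent.Lib.KS71.PSLTwist
open Cfsg.Agent.Lib.KS71.PSLCent (count_eq dt dt_sc coe_dt card_units_F)

universe u

variable {F : Type u} [Field F] [Fintype F] {n : ℕ}

/-- The determinant is an `n`-th power. -/
theorem det_pow_of_sim (hc : Odd n ∨ (2 : F) = 0) {A : Matrix (Fin n) (Fin n) F} (hd : A.det ≠ 0)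
    {k : GL (Fin n) F} {c : Fˣ} (h : (k : Matrix (Fin n) (Fin n) F)ᵀ * A * (k : Matrix (Fin n) (Fin n) F) = (c : F) • A) :
    ∃ e : Fˣ, dt k = e ^ n := by
  have h1 := det_sq_of_sim hd h
  rw [Fintype.card_fin] at h1
  have h1' : (dt k) ^ 2 = c ^ n := by
    apply Units.ext
    simpa [coe_dt] using h1
  by_cases h2 : (2 : F) = 0
  · haveI : CharP F 2 := CharTwo.of_one_ne_zero_of_two_eq_zero one_ne_zero h2
    obtain ⟨e, he⟩ := exists_sqrt_unit c
    refine ⟨e, ?_⟩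
    apply Units.ext
    apply sq_inj'
    have h3 : ((dt k : Fˣ) : F) ^ 2 = (c : F) ^ n := by
      simpa using congrArg Units.val h1'
    rw [h3, ← he, ← pow_mul, Units.val_pow_eq_pow_val, ← pow_mul, mul_comm]
  · obtain ⟨t, rfl⟩ := hc.resolve_right h2
    let e : Fˣ := dt k * (c⁻¹) ^ t
    have he : e ^ 2 = c := by
      simp only [e]
      rw [mul_pow, h1', ← pow_mul, inv_pow]
      have : c ^ (2 * t + 1) * (c ^ (t * 2))⁻¹ = c := by
        rw [pow_succ, mul_comm 2 t]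
        group
      exact this
    have h3 : ((dt k : Fˣ) : F) ^ 2 = (((e ^ (2 * t + 1) : Fˣ)) : F) ^ 2 := by
      have h4 : (dt k) ^ 2 = (e ^ (2 * t + 1)) ^ 2 := by
        rw [h1', pow_right_comm, he]
      simpa using congrArg Units.val h4
    rcases sq_eq_sq_iff_eq_or_eq_neg.1 h3 with h4 | h4
    · exact ⟨e, Units.ext h4⟩
    · refine ⟨-e, ?_⟩
      apply Units.ext
      rw [h4]
      have hod : Odd (2 * t + 1) := ⟨t, rfl⟩
      rw [hod.neg_pow]
      simp

theorem map_det_range (hc : Odd n ∨ (2 : F) = 0) (A : GL (Fin n) F) :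
    (simG (A : Matrix (Fin n) (Fin n) F)).map dt = (powMonoidHom n : Fˣ →* Fˣ).range := by
  apply le_antisymm
  · rintro _ ⟨k, ⟨c, hc'⟩, rfl⟩
    obtain ⟨e, he⟩ := det_pow_of_sim hc (gl_det_ne A) hc'
    exact ⟨e, he.symm⟩
  · rintro _ ⟨c, rfl⟩
    refine ⟨sc n c, scalars_le_simG _ ?_, dt_sc c⟩
    exact (Cfsg.Geo.mem_scalars_iff _).2 ⟨c, coe_sc c⟩

theorem map_det_alt {m : ℕ} (A : GL (Fin n) F)
    (hA : ∀ x : Fin n → F, x ⬝ᵥ ((A : Matrix (Fin n) (Fin n) F) *ᵥ x) = 0) (hc : n = 2 * m) :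
    (simG (A : Matrix (Fin n) (Fin n) F)).map dt = (powMonoidHom m : Fˣ →* Fˣ).range := by
  have hcard : Fintype.card (Fin n) = 2 * m := by simp [hc]
  apply le_antisymm
  · rintro _ ⟨k, ⟨c, hc'⟩, rfl⟩
    refine ⟨c, ?_⟩
    apply Units.ext
    simp only [powMonoidHom_apply, Units.val_pow_eq_pow_val]
    exact (det_of_alt hA (gl_det_ne A) hcard hc').symm
  · rintro _ ⟨c, rfl⟩
    obtain ⟨k, hk⟩ := exists_sim_alt hA (gl_det_ne A) hcard c
    refine ⟨k, ⟨c, hk⟩, ?_⟩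
    apply Units.ext
    simp only [powMonoidHom_apply, Units.val_pow_eq_pow_val]
    exact det_of_alt hA (gl_det_ne A) hcard hk

theorem map_det_sym {m : ℕ} (h2 : (2 : F) ≠ 0) (A : GL (Fin n) F)
    (hS : (A : Matrix (Fin n) (Fin n) F)ᵀ = A) (hn : 1 ≤ n) (hc : n = 2 * m) :
    (simG (A : Matrix (Fin n) (Fin n) F)).map dt = (powMonoidHom m : Fˣ →* Fˣ).range ⊔ Subgroup.zpowers (-1 : Fˣ) := by
  have hcard : Fintype.card (Fin n) = 2 * m := by simp [hc]
  have hsign : ∀ (k : GL (Fin n) F) (c : Fˣ), (k : Matrix (Fin n) (Fin n) F)ᵀ * (A : Matrix (Fin n) (Fin n) F) * (k : Matrix (Fin n) (Fin n) F) = (c : F) • (A : Matrix (Fin n) (Fin n) F) →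
      dt k = c ^ m ∨ dt k = -(c ^ m) := by
    intro k c hk
    have h1 := det_sq_of_sim (gl_det_ne A) hk
    rw [hcard, pow_mul', ] at h1
    have h3 : ((dt k : Fˣ) : F) ^ 2 = (((c ^ m : Fˣ)) : F) ^ 2 := by
      simpa [coe_dt] using h1
    rcases sq_eq_sq_iff_eq_or_eq_neg.1 h3 with h4 | h4
    · exact Or.inl (Units.ext h4)
    · exact Or.inr (Units.ext (by simpa using h4))
  have hA0 : (A : Matrix (Fin n) (Fin n) F) ≠ 0 := by
    intro h0
    have h9 := gl_det_ne A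
    rw [h0] at h9
    haveI : Nonempty (Fin n) := ⟨⟨0, by omega⟩⟩
    exact h9 Matrix.det_zero
  obtain ⟨r, hr1, hr2⟩ := exists_refl h2 hS hA0
  have hneg : (-1 : Fˣ) ∈ (simG (A : Matrix (Fin n) (Fin n) F)).map dt := by
    refine ⟨r, ⟨1, by rw [Units.val_one, one_smul]; exact hr1⟩, ?_⟩
    apply Units.ext
    simpa [coe_dt] using hr2
  apply le_antisymm
  · rintro _ ⟨k, ⟨c, hc'⟩, rfl⟩
    rcases hsign k c hc' with h | h
    · exact Subgroup.mem_sup_left ⟨c, h.symm⟩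
    · have e1 : dt k = c ^ m * (-1) := by rw [h]; simp
      rw [e1]
      exact Subgroup.mul_mem _ (Subgroup.mem_sup_left ⟨c, rfl⟩) (Subgroup.mem_sup_right (Subgroup.mem_zpowers _))
  · refine sup_le ?_ ((Subgroup.zpowers_le).2 hneg)
    rintro _ ⟨c, rfl⟩
    obtain ⟨k, hk⟩ := exists_sim_sym h2 hS (gl_det_ne A) ⟨m, by rw [hcard]; ring⟩ c
    have hkm : dt k ∈ (simG (A : Matrix (Fin n) (Fin n) F)).map dt := ⟨k, ⟨c, hk⟩, rfl⟩
    rcases hsign k c hk with h | h
    · rw [powMonoidHom_apply, ← h]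
      exact hkm
    · have e1 : c ^ m = dt k * (-1) := by rw [h]; simp
      rw [powMonoidHom_apply, e1]
      exact Subgroup.mul_mem _ hkm hneg

theorem order_neg_one (h2 : (2 : F) ≠ 0) : orderOf (-1 : Fˣ) = 2 := by
  apply orderOf_eq_prime (by simp)
  intro h
  have h1 := congrArg Units.val h
  simp only [Units.val_neg, Units.val_one] at h1
  apply h2
  linear_combination -h1

/-- **The class count.** -/
theorem main {p f : ℕ} [Fact p.Prime] (hF : Fintype.card F = p ^ f) (hf : 1 ≤ f) (hn : 3 ≤ n)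
    (γ : MulAut (ProjectiveSpecialLinearGroup (Fin n) F)) (hγ : Cfsg.IsGraphAutClassPSL γ) (hγ2 : orderOf γ = 2) :
    ((Even n ∧ Odd p ∧ Nonempty (↥(Cfsg.inndiagPSL n F ⊓ Subgroup.centralizer {γ}) ≃* Cfsg.PGSp (n / 2) F)) →
      Cfsg.splitClassCount (Cfsg.inndiagPSL n F) (Cfsg.Inn (ProjectiveSpecialLinearGroup (Fin n) F)) γ = Nat.gcd (n / 2) (p ^ f - 1)) ∧
    ((Even n ∧ Odd p ∧ ¬ Nonempty (↥(Cfsg.inndiagPSL n F ⊓ Subgroup.centralizer {γ}) ≃* Cfsg.PGSp (n / 2) F)) →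
      Cfsg.splitClassCount (Cfsg.inndiagPSL n F) (Cfsg.Inn (ProjectiveSpecialLinearGroup (Fin n) F)) γ = Nat.gcd n (p ^ f - 1) / 2) ∧
    (¬ (Even n ∧ Odd p) →
      Cfsg.splitClassCount (Cfsg.inndiagPSL n F) (Cfsg.Inn (ProjectiveSpecialLinearGroup (Fin n) F)) γ = Nat.gcd n (p ^ f - 1)) := by
  classical
  obtain ⟨A, rfl⟩ := (graph_iff hn γ).1 hγ
  have hE := (order_iff hn A).1 hγ2
  have hcount : Cfsg.splitClassCount (Cfsg.inndiagPSL n F) (Cfsg.Inn (ProjectiveSpecialLinearGroup (Fin n) F)) (gam A) =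
      ((simG (A : Matrix (Fin n) (Fin n) F)).map dt).index := by
    rw [count_eq (by omega), comap_cent (by omega)]
    rfl
  have hcard : Nat.card Fˣ = p ^ f - 1 := card_units_F hF
  have hpF : ((p : ℕ) : F) = 0 := by
    have h1 := Nat.cast_card_eq_zero F
    rw [hF, Nat.cast_pow] at h1
    exact pow_eq_zero_iff (by omega) |>.1 h1
  have h2iff : (2 : F) = 0 ↔ p = 2 := by
    constructor
    · intro h2
      haveI : CharP F 2 := CharTwo.of_one_ne_zero_of_two_eq_zero one_ne_zero h2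
      have h3 : 2 ∣ p := (CharP.cast_eq_zero_iff F 2 p).1 hpF
      exact ((Nat.prime_dvd_prime_iff_eq Nat.prime_two (Fact.out)).1 h3).symm
    · rintro rfl
      exact_mod_cast hpF
  have hodd2 : Odd p → (2 : F) ≠ 0 := by
    intro hp h2
    have := h2iff.1 h2
    subst this
    exact absurd hp (by decide)
  rw [hcount]
  by_cases hc : Even n ∧ Odd p
  · obtain ⟨hev, hpo⟩ := hc
    have h2 := hodd2 hpo
    obtain ⟨m, hm⟩ := hev
    have hm' : n = 2 * m := by omega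
    have hm2 : n / 2 = m := by omega
    have hcardn : Fintype.card (Fin n) = 2 * m := by simp [hm']
    obtain ⟨ε, hε, hAε⟩ := hE
    rw [hm2]
    rcases hε with rfl | rfl
    · -- symmetric
      rw [one_smul] at hAε
      obtain ⟨t, rfl⟩ : ∃ t, m = t + 1 := ⟨m - 1, by omega⟩
      have hnot : ¬ Nonempty (↥(Cfsg.inndiagPSL n F ⊓ Subgroup.centralizer {gam A}) ≃* Cfsg.PGSp (t + 1) F) := by
        rintro ⟨e⟩
        obtain ⟨e1⟩ := cent_iso (n := n) (by omega) A
        exact not_iso_of_symm h2 hAε (gl_det_ne A) hcardn ⟨e1.symm.trans e⟩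
      refine ⟨fun h => absurd h.2.2 hnot, fun _ => ?_, fun h => absurd ⟨⟨t + 1, by omega⟩, hpo⟩ h⟩
      rw [map_det_sym h2 A hAε (by omega) hm', index_sup_inv _ (order_neg_one h2), hcard, hm']
    · -- alternating
      rw [neg_smul, one_smul] at hAε
      have halt := alt_of_skew h2 hAε
      have hyes : Nonempty (↥(Cfsg.inndiagPSL n F ⊓ Subgroup.centralizer {gam A}) ≃* Cfsg.PGSp m F) := by
        obtain ⟨e1⟩ := cent_iso (n := n) (by omega) A
        obtain ⟨e2⟩ := Cong.proj (cong_J halt (gl_det_ne A) hcardn)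
        obtain ⟨e3⟩ := proj_J (F := F) m
        exact ⟨e1.trans (e2.trans e3)⟩
      refine ⟨fun _ => ?_, fun h => absurd hyes h.2.2, fun h => absurd ⟨⟨m, by omega⟩, hpo⟩ h⟩
      rw [map_det_alt A halt hm', IsCyclic.index_powMonoidHom_range, hcard, Nat.gcd_comm]
  · refine ⟨fun h => absurd ⟨h.1, h.2.1⟩ hc, fun h => absurd ⟨h.1, h.2.1⟩ hc, fun _ => ?_⟩
    have hc' : Odd n ∨ (2 : F) = 0 := by
      by_cases hn2 : Even n
      · right
        have hp2 : ¬ Odd p := fun h => hc ⟨hn2, h⟩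
        have := (Fact.out : p.Prime).eq_two_or_odd'
        rcases this with h | h
        · exact h2iff.2 h
        · exact absurd h hp2
      · left
        exact Nat.not_even_iff_odd.1 hn2
    rw [map_det_range hc' A, IsCyclic.index_powMonoidHom_range, hcard, Nat.gcd_comm]

end Cfsg.Agent.Lib.GraphInv.PSLCount
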