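/-
The involutory graph automorphisms of `PSU_n(q)`, parametrised by `ε`-symmetric matrices over the
field with `q` elements.
-/
import Mathlib
import Cfsg.Agent.Lib.GraphInv.Orders
import Cfsg.Agent.Lib.AutCl.PSUField

set_option autoImplicit false
set_option linter.unusedSimpArgs false
set_option linter.unusedSectionVars false
set_option linter.unusedVariables false
set_option linter.style.haveILetI false

namespace Cfsg.Agent.Lib.GraphInv.PSURep

open Matrix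
open scoped MatrixGroups
open Cfsg.Agent.Lib.GraphInv.Sim Cfsg.Agent.Lib.GraphInv.Model
open Cfsg.Agent.Lib.AutCl.PSUAut Cfsg.Agent.Lib.AutCl.PSUCount Cfsg.Agent.Lib.AutCl.PSUGroup
  Cfsg.Agent.Lib.AutCl.PSUField
open Cfsg.Agent.Lib.Classical.HermBasic Cfsg.Agent.Lib.Classical.HermBridge
open Cfsg.Agent.Lib.HermCount.Field
open Cfsg.Agent.Lib.KS71.Speiser
open Cfsg.Agent.Lib.KS71.PSLAutGroup (mapGL coe_mapGL mapGL_mul mapGL_inv map_mul_map)
open Cfsg.Agent.Lib.KS71.PSLTwist (sc coe_sc sc_mul sc_central mapGL_sc mapGL_mapGL mapGL_one twN twN_zero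
  twN_succ cocycle herm_eq)
open Cfsg.Agent.Lib.KS71.PSLCent (dt coe_dt dt_sc dt_mapGL)

universe u v

variable {F : Type u} [Field F] {F₀ : Type v} [Field F₀] {n : ℕ}

/-! ### Matrix cancellation -/

section cancel

variable (τ : F ≃+* F) (P : GL (Fin n) F) (X : Matrix (Fin n) (Fin n) F)

theorem c1 : P.1 * (P⁻¹).1 = 1 := gl_mul_inv' P
theorem c2 : (P⁻¹).1 * P.1 = 1 := gl_inv_mul' P
theorem c3 : P.1 * ((P⁻¹).1 * X) = X := by rw [← Matrix.mul_assoc, c1, Matrix.one_mul]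
theorem c4 : (P⁻¹).1 * (P.1 * X) = X := by rw [← Matrix.mul_assoc, c2, Matrix.one_mul]
theorem d1 : P.1.map τ * (P⁻¹).1.map τ = 1 := gl_mul_inv' (mapGL τ P)
theorem d2 : (P⁻¹).1.map τ * P.1.map τ = 1 := gl_inv_mul' (mapGL τ P)
theorem d3 : P.1.map τ * ((P⁻¹).1.map τ * X) = X := by rw [← Matrix.mul_assoc, d1, Matrix.one_mul]
theorem d4 : (P⁻¹).1.map τ * (P.1.map τ * X) = X := by rw [← Matrix.mul_assoc, d2, Matrix.one_mul]
theorem e1 : (P⁻¹).1ᵀ * P.1ᵀ = 1 := by rw [← Matrix.transpose_mul, c1, Matrix.transpose_one]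
theorem e2 : P.1ᵀ * (P⁻¹).1ᵀ = 1 := by rw [← Matrix.transpose_mul, c2, Matrix.transpose_one]
theorem e3 : (P⁻¹).1ᵀ * (P.1ᵀ * X) = X := by rw [← Matrix.mul_assoc, e1, Matrix.one_mul]
theorem e4 : P.1ᵀ * ((P⁻¹).1ᵀ * X) = X := by rw [← Matrix.mul_assoc, e2, Matrix.one_mul]
theorem f1 : ((P⁻¹).1.map τ)ᵀ * (P.1.map τ)ᵀ = 1 := by rw [← Matrix.transpose_mul, d1, Matrix.transpose_one]
theorem f2 : (P.1.map τ)ᵀ * ((P⁻¹).1.map τ)ᵀ = 1 := by rw [← Matrix.transpose_mul, d2, Matrix.transpose_one]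
theorem f3 : ((P⁻¹).1.map τ)ᵀ * ((P.1.map τ)ᵀ * X) = X := by rw [← Matrix.mul_assoc, f1, Matrix.one_mul]
theorem f4 : (P.1.map τ)ᵀ * (((P⁻¹).1.map τ)ᵀ * X) = X := by rw [← Matrix.mul_assoc, f2, Matrix.one_mul]

theorem map_smul_τ (c : F) : (c • X).map τ = τ c • X.map τ := by
  ext i j
  simp

theorem map_one_τ : (1 : Matrix (Fin n) (Fin n) F).map τ = 1 :=
  Matrix.map_one _ (map_zero τ) (map_one τ)

theorem map_tr_τ : Xᵀ.map τ = (X.map τ)ᵀ := rfl

end cancel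

/-! ### The context -/

/-- The field-theoretic setting. -/
structure Ctx (τ : F ≃+* F) (ι₀ : F₀ →+* F) (q : ℕ) [Fintype F] : Prop where
  hF : Fintype.card F = q ^ 2
  hτ : ∀ x, τ x = x ^ q
  hι : ∀ x, τ x = x ↔ x ∈ Set.range ι₀

namespace Ctx

variable [Fintype F] {τ : F ≃+* F} {ι₀ : F₀ →+* F} {q : ℕ} (C : Ctx τ ι₀ q)

include C

theorem tt (x : F) : τ (τ x) = x := by
  rw [C.hτ, C.hτ]
  exact frob_frob C.hF x

theorem invol : Invol (τ : F →+* F) where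
  invol a := C.tt a
  ne_id := by
    obtain ⟨x, hx⟩ := exists_frob_ne C.hF
    refine ⟨x, ?_⟩
    show τ x ≠ x
    rw [C.hτ]
    exact hx

theorem ne_refl : τ ≠ RingEquiv.refl F := by
  intro h
  obtain ⟨x, hx⟩ := exists_frob_ne C.hF
  apply hx
  rw [← C.hτ, h]
  rfl

theorem order : orderOf τ = 2 := by
  refine orderOf_eq_prime ?_ ?_
  · ext x
    rw [sq]
    exact C.tt x
  · intro h
    exact C.ne_refl h

theorem fix (x : F₀) : τ (ι₀ x) = ι₀ x := (C.hι _).2 ⟨x, rfl⟩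

theorem mapmap (M : Matrix (Fin n) (Fin n) F) : (M.map τ).map τ = M := by
  ext i j
  exact C.tt _

theorem map_iota (M : Matrix (Fin n) (Fin n) F₀) : (M.map ι₀).map τ = M.map ι₀ := by
  ext i j
  exact C.fix _

theorem exists_matrix (M : Matrix (Fin n) (Fin n) F) (hM : M.map τ = M) :
    ∃ M₀ : Matrix (Fin n) (Fin n) F₀, M₀.map ι₀ = M := by
  have h : ∀ i j, ∃ x : F₀, ι₀ x = M i j := fun i j => (C.hι _).1 (congrFun (congrFun hM i) j)
  choose f hf using h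
  exact ⟨Matrix.of f, by ext i j; exact hf i j⟩

theorem mem_GU (g : GL (Fin n) F) : g ∈ Cfsg.GU n F q ↔ g.1ᵀ * g.1.map τ = 1 := by
  have h := Cfsg.Agent.Lib.KS71.GUBasic.mem_GU_iff_mat (τ : F →+* F) (fun x => C.hτ x) g
  exact h

theorem exists_norm (t : F) (ht0 : t ≠ 0) (ht : τ t = t) : ∃ l, l * τ l = t := by
  haveI : Finite F := inferInstance
  exact C.invol.exists_norm t ht0 ht

/-- Elements on which `τ` acts through the sign `ε`. -/
theorem exists_eta {ε : F} (hε : ε = 1 ∨ ε = -1) : ∃ η : F, η ≠ 0 ∧ τ η = ε * η := by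
  rcases hε with rfl | rfl
  · exact ⟨1, one_ne_zero, by simp⟩
  · obtain ⟨c, hc0, hc⟩ := C.invol.exists_pure
    refine ⟨c, hc0, ?_⟩
    have : τ c = (τ : F →+* F) c := rfl
    rw [this]
    linear_combination hc

theorem h90 {a : F} (ha : a * τ a = 1) : ∃ c : F, c ≠ 0 ∧ a * τ c = c := by
  refine hilbert90 τ C.order (by norm_num) a ?_
  simp only [nrm, Finset.prod_range_succ, Finset.prod_range_zero, pow_zero, pow_one, one_mul]
  exact ha

theorem eps_fix {ε : F} (hε : ε = 1 ∨ ε = -1) : τ ε = ε := by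
  rcases hε with rfl | rfl <;> simp

end Ctx

/-- The parametrisation. -/
structure Rep (τ : F ≃+* F) (ι₀ : F₀ →+* F) (g : GL (Fin n) F) (A : GL (Fin n) F₀) (P : GL (Fin n) F)
    (μ η ε : F) : Prop where
  hε : ε = 1 ∨ ε = -1
  hμ : μ * τ μ = ε
  hη : τ η = ε * η
  hη0 : η ≠ 0
  hX : (P.1.map τ)ᵀ * P.1 = η • A.1.map ι₀
  hg : g.1 = μ • (P.1 * (P⁻¹).1.map τ)

theorem sq_eps {ε : F} (hε : ε = 1 ∨ ε = -1) : ε * ε = 1 := by
  rcases hε with rfl | rfl <;> simp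

namespace Rep

variable [Fintype F] {τ : F ≃+* F} {ι₀ : F₀ →+* F} {q : ℕ} (C : Ctx τ ι₀ q)
  {g : GL (Fin n) F} {A : GL (Fin n) F₀} {P : GL (Fin n) F} {μ η ε : F}
  (R : Rep τ ι₀ g A P μ η ε)

include C R

theorem hXt : P.1ᵀ * P.1.map τ = τ η • A.1.map ι₀ := by
  have h := congrArg (fun X : Matrix (Fin n) (Fin n) F => X.map τ) R.hX
  simp only [map_mul_map, map_smul_τ, map_tr_τ, C.mapmap, C.map_iota] at h
  exact h

theorem ε_ne : ε ≠ 0 := by
  rcases R.hε with h | h <;> rw [h] <;> simp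

theorem μ_ne : μ ≠ 0 := by
  intro h
  have := R.hμ
  rw [h, zero_mul] at this
  exact R.ε_ne C this.symm

theorem τη_ne : τ η ≠ 0 := (map_ne_zero τ).2 R.hη0

/-- The matrix is `ε`-symmetric. -/
theorem aT : (A.1.map ι₀)ᵀ = ε • A.1.map ι₀ := by
  have h1 := congrArg Matrix.transpose R.hX
  rw [Matrix.transpose_mul, Matrix.transpose_transpose, Matrix.transpose_smul, R.hXt C, R.hη] at h1
  calc (A.1.map ι₀)ᵀ = η⁻¹ • (η • (A.1.map ι₀)ᵀ) := by rw [smul_smul, inv_mul_cancel₀ R.hη0, one_smul]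
    _ = η⁻¹ • ((ε * η) • A.1.map ι₀) := by rw [← h1]
    _ = ε • A.1.map ι₀ := by
      rw [smul_smul]
      congr 1
      field_simp [R.hη0]

theorem mem : g ∈ Cfsg.GU n F q := by
  rw [C.mem_GU, R.hg]
  have h1 : (A.1.map ι₀) * (P⁻¹).1 = η⁻¹ • (P.1.map τ)ᵀ := by
    have h2 := congrArg (fun X : Matrix (Fin n) (Fin n) F => X * (P⁻¹).1) R.hX
    simp only [Matrix.mul_assoc, c1, Matrix.mul_one, Matrix.smul_mul] at h2
    rw [h2, smul_smul, inv_mul_cancel₀ R.hη0, one_smul]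
  simp only [Matrix.transpose_smul, Matrix.transpose_mul, map_smul_τ, map_mul_map, C.mapmap, Matrix.smul_mul,
    Matrix.mul_smul, smul_smul, Matrix.mul_assoc]
  rw [← Matrix.mul_assoc (P.1ᵀ), R.hXt C, Matrix.smul_mul, Matrix.mul_smul, h1, Matrix.mul_smul, f1,
    R.hη, smul_smul, smul_smul]
  rw [show τ μ * μ * (ε * η) * η⁻¹ = μ * τ μ * ε by field_simp [R.hη0], R.hμ, sq_eps R.hε, one_smul]

theorem sq_eq : g.1 * g.1.map τ = ε • 1 := by
  rw [R.hg]
  simp only [map_smul_τ, map_mul_map, C.mapmap, Matrix.smul_mul, Matrix.mul_smul, smul_smul, Matrix.mul_assoc, d4, c1]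
  rw [mul_comm (τ μ), R.hμ]

end Rep


/-! ### Embedded matrices -/

section kOf

/-- The embedding of the small general linear group. -/
noncomputable def emb (ι₀ : F₀ →+* F) : GL (Fin n) F₀ →* GL (Fin n) F := Matrix.GeneralLinearGroup.map ι₀

theorem coe_emb (ι₀ : F₀ →+* F) (M : GL (Fin n) F₀) : (emb ι₀ M).1 = M.1.map ι₀ := rfl

theorem g1 (ι₀ : F₀ →+* F) (M : GL (Fin n) F₀) : M.1.map ι₀ * (M⁻¹).1.map ι₀ = 1 := gl_mul_inv' (emb ι₀ M)

theorem g2 (ι₀ : F₀ →+* F) (M : GL (Fin n) F₀) : (M⁻¹).1.map ι₀ * M.1.map ι₀ = 1 := gl_inv_mul' (emb ι₀ M)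

theorem g3 (ι₀ : F₀ →+* F) (M : GL (Fin n) F₀) (X : Matrix (Fin n) (Fin n) F) :
    M.1.map ι₀ * ((M⁻¹).1.map ι₀ * X) = X := by rw [← Matrix.mul_assoc, g1, Matrix.one_mul]

theorem g4 (ι₀ : F₀ →+* F) (M : GL (Fin n) F₀) (X : Matrix (Fin n) (Fin n) F) :
    (M⁻¹).1.map ι₀ * (M.1.map ι₀ * X) = X := by rw [← Matrix.mul_assoc, g2, Matrix.one_mul]

/-- The elements normalising the parametrised automorphisms. -/
noncomputable def kOf (ι₀ : F₀ →+* F) (c : Fˣ) (P' : GL (Fin n) F) (M₀ : GL (Fin n) F₀) (P : GL (Fin n) F) :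
    GL (Fin n) F :=
  sc n c * P' * emb ι₀ M₀ * P⁻¹

theorem coe_kOf (ι₀ : F₀ →+* F) (c : Fˣ) (P' : GL (Fin n) F) (M₀ : GL (Fin n) F₀) (P : GL (Fin n) F) :
    (kOf ι₀ c P' M₀ P).1 = (c : F) • (P'.1 * (M₀.1.map ι₀ * (P⁻¹).1)) := by
  unfold kOf
  rw [Units.val_mul, Units.val_mul, Units.val_mul, coe_sc, coe_emb]
  simp only [Matrix.smul_mul, Matrix.one_mul, Matrix.mul_assoc]

theorem coe_kOf_inv (ι₀ : F₀ →+* F) (c : Fˣ) (P' : GL (Fin n) F) (M₀ : GL (Fin n) F₀) (P : GL (Fin n) F) :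
    ((kOf ι₀ c P' M₀ P)⁻¹).1 = (c : F)⁻¹ • (P.1 * ((M₀⁻¹).1.map ι₀ * (P'⁻¹).1)) := by
  have h : (kOf ι₀ c P' M₀ P)⁻¹ = sc n c⁻¹ * (P * (emb ι₀ M₀⁻¹ * P'⁻¹)) := by
    have hs : sc n c⁻¹ = (sc n c)⁻¹ := map_inv (Matrix.GeneralLinearGroup.scalar (Fin n)) c
    unfold kOf
    rw [map_inv (emb ι₀) M₀, hs, mul_assoc, mul_assoc, sc_central]
    group
  rw [h, Units.val_mul, Units.val_mul, Units.val_mul, coe_sc, coe_emb]
  simp only [Matrix.smul_mul, Matrix.one_mul, Units.val_inv_eq_inv_val]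

end kOf

/-! ### The automorphisms -/

section th

variable [Fintype F] {τ : F ≃+* F} {ι₀ : F₀ →+* F} {q : ℕ} (C : Ctx τ ι₀ q)

include C

theorem Th_conj {g : GL (Fin n) F} (hg : g ∈ Cfsg.GU n F q) (k : Cfsg.GU n F q) :
    piG C.hF n k * Th C.hF n g hg τ * (piG C.hF n k)⁻¹ =
      Th C.hF n (k.1 * g * mapGL τ (k.1)⁻¹)
        (mul_mem (mul_mem k.2 hg) (mapGL_mem C.hF n (inv_mem k.2) τ)) τ := by
  rw [← map_inv, piG_apply, piG_apply, Th_mul, Th_mul]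
  refine Th_eq_of C.hF n _ _ ?_ ?_
  · show k.1 * mapGL (RingEquiv.refl F) g * mapGL (RingEquiv.refl F * τ) (k.1)⁻¹ = _
    rw [show mapGL (RingEquiv.refl F) g = g from mapGL_one g]
    rfl
  · ext x
    rfl

namespace Rep

variable {g : GL (Fin n) F} {A : GL (Fin n) F₀} {P : GL (Fin n) F} {μ η ε : F}
  (R : Rep τ ι₀ g A P μ η ε)

include R

theorem Th_mul_self : Th C.hF n g (R.mem C) τ * Th C.hF n g (R.mem C) τ = 1 := by
  rw [Th_mul]
  have hτ2 : τ * τ = RingEquiv.refl F := by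
    ext x
    exact C.tt x
  have h1 : g * mapGL τ g ∈ Cfsg.GU n F q := mul_mem (R.mem C) (mapGL_mem C.hF n (R.mem C) τ)
  rw [Th_eq_of C.hF n h1 h1 rfl hτ2, ← Th_one C.hF n]
  refine Th_scalar C.hF n (one_mem _) h1 _ (R.ε_ne C) ?_
  rw [Units.val_mul, coe_mapGL, R.sq_eq C]
  rfl

theorem order_eq (hn : 3 ≤ n) : orderOf (Th C.hF n g (R.mem C) τ) = 2 := by
  refine orderOf_eq_prime ?_ ?_
  · rw [sq]
    exact R.Th_mul_self C
  · intro h
    rw [← Th_one C.hF n] at h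
    exact C.ne_refl (Th_eq_imp C.hF n hn _ _ h).1.symm

theorem isGraph (hn : 3 ≤ n) : Cfsg.IsGraphAutClassPSU (Th C.hF n g (R.mem C) τ) := by
  refine ⟨hn, _, _, τ, ?_, isInnerDiagonal_Th C.hF n (R.mem C), isField_Th C.hF n τ, Th_factor C.hF n (R.mem C) τ⟩
  rw [C.order]
  exact even_two

end Rep

variable {g g' : GL (Fin n) F} {A B : GL (Fin n) F₀} {P P' : GL (Fin n) F} {μ μ' η η' ε ε' : F}
  (R : Rep τ ι₀ g A P μ η ε) (R' : Rep τ ι₀ g' B P' μ' η' ε')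

theorem map_sim {M₀ : GL (Fin n) F₀} {d : F₀} (hM : M₀.1ᵀ * B.1 * M₀.1 = d • A.1) (X : Matrix (Fin n) (Fin n) F) :
    (M₀.1.map ι₀)ᵀ * (B.1.map ι₀ * (M₀.1.map ι₀ * X)) = ι₀ d • (A.1.map ι₀ * X) := by
  have h := congrArg (fun Y : Matrix (Fin n) (Fin n) F₀ => Y.map ι₀) hM
  simp only [Matrix.map_mul] at h
  rw [← Matrix.mul_assoc, ← Matrix.mul_assoc, ← Matrix.smul_mul]
  congr 1
  rw [show (M₀.1.map ι₀)ᵀ = (M₀.1ᵀ).map ι₀ from rfl, h]
  ext i j
  simp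

include R R'

/-- The element `kOf` is unitary. -/
theorem kOf_mem {M₀ : GL (Fin n) F₀} {d : F₀} {c : Fˣ} (hM : M₀.1ᵀ * B.1 * M₀.1 = d • A.1)
    (hN : ι₀ d * ((c : F) * τ c) * τ η' = τ η) : kOf ι₀ c P' M₀ P ∈ Cfsg.GU n F q := by
  rw [C.mem_GU, coe_kOf]
  have hX' : ∀ X : Matrix (Fin n) (Fin n) F, P'.1ᵀ * (P'.1.map τ * X) = τ η' • (B.1.map ι₀ * X) := by
    intro X
    rw [← Matrix.mul_assoc, R'.hXt C, Matrix.smul_mul]
  have hX : τ η • (A.1.map ι₀ * (P⁻¹).1.map τ) = P.1ᵀ := by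
    rw [← Matrix.smul_mul, ← R.hXt C, Matrix.mul_assoc, d1, Matrix.mul_one]
  simp only [Matrix.transpose_smul, Matrix.transpose_mul, map_smul_τ, map_mul_map, C.map_iota, Matrix.smul_mul,
    Matrix.mul_smul, smul_smul, Matrix.mul_assoc, hX', map_sim C hM]
  have e : τ (c : F) * ((c : F) * (τ η' * ι₀ d)) = τ η := by rw [← hN]; ring
  rw [e, ← Matrix.mul_smul, hX, e1]

/-- The conjugate by `kOf` of the first automorphism is the second. -/
theorem kOf_conj (M₀ : GL (Fin n) F₀) (c : Fˣ) :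
    g'.1 = (τ (c : F) * μ' / (c * μ)) • ((kOf ι₀ c P' M₀ P).1 * g.1 * ((kOf ι₀ c P' M₀ P)⁻¹).1.map τ) := by
  have hμ := R.μ_ne C
  have hc : (c : F) ≠ 0 := c.ne_zero
  have hτc : τ (c : F) ≠ 0 := (map_ne_zero τ).2 hc
  rw [coe_kOf, coe_kOf_inv, R.hg, R'.hg]
  simp only [map_smul_τ, map_mul_map, C.mapmap, C.map_iota, Matrix.smul_mul, Matrix.mul_smul, smul_smul,
    Matrix.mul_assoc, c4, d4, g3, c3, d3]
  congr 1
  rw [map_inv₀]
  field_simp

/-- Elements conjugating the first automorphism to the second are of the form `kOf`. -/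
theorem conj_fwd (hn : 1 ≤ n) (k : GL (Fin n) F) (hk : k ∈ Cfsg.GU n F q) {ζ : F} (hζ : ζ ≠ 0)
    (h : g'.1 = ζ • (k.1 * g.1 * (k⁻¹).1.map τ)) :
    ∃ (M₀ : GL (Fin n) F₀) (d : F₀) (c : Fˣ), d ≠ 0 ∧ k = kOf ι₀ c P' M₀ P ∧ M₀.1ᵀ * B.1 * M₀.1 = d • A.1 ∧
      ι₀ d * ((c : F) * τ c) * τ η' = τ η := by
  have hμ := R.μ_ne C
  have hμ' := R'.μ_ne C
  let M₁ : GL (Fin n) F := P'⁻¹ * (k * P)
  have hM₁ : M₁.1 = (P'⁻¹).1 * (k.1 * P.1) := rfl
  have hM0 : M₁.1 ≠ 0 := by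
    intro h0
    have h9 := gl_det_ne M₁
    rw [h0] at h9
    haveI : Nonempty (Fin n) := ⟨⟨0, by omega⟩⟩
    exact h9 Matrix.det_zero
  have h1 : μ' • M₁.1.map τ = (ζ * μ) • M₁.1 := by
    have h2 := congrArg (fun X : Matrix (Fin n) (Fin n) F => (P'⁻¹).1 * X * (k.1.map τ * P.1.map τ)) h
    simp only [R.hg, R'.hg, Matrix.smul_mul, Matrix.mul_smul, smul_smul, Matrix.mul_assoc, c4, d4, d2,
      Matrix.mul_one] at h2
    rw [hM₁, map_mul_map, map_mul_map]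
    rw [h2]
  set b : F := ζ * μ / μ' with hb
  have hb0 : b ≠ 0 := div_ne_zero (mul_ne_zero hζ hμ) hμ'
  have hτM : M₁.1.map τ = b • M₁.1 := by
    calc M₁.1.map τ = μ'⁻¹ • (μ' • M₁.1.map τ) := by rw [smul_smul, inv_mul_cancel₀ hμ', one_smul]
      _ = b • M₁.1 := by
        rw [h1, smul_smul, hb]
        congr 1
        field_simp
  have hbb : τ b * b = 1 := by
    have h2 : (τ b * b - 1) • M₁.1 = 0 := by
      have h3 : M₁.1 = (τ b * b) • M₁.1 := by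
        conv_lhs => rw [← C.mapmap M₁.1, hτM, map_smul_τ, hτM, smul_smul]
      rw [sub_smul, one_smul, ← h3, sub_self]
    have h3 := (smul_eq_zero.1 h2).resolve_right hM0
    linear_combination h3
  obtain ⟨c, hc0, hc⟩ := C.h90 (a := b⁻¹) (by
    rw [map_inv₀, ← mul_inv, mul_comm, hbb, inv_one])
  have hτc : τ c = b * c := by
    calc τ c = b * (b⁻¹ * τ c) := by field_simp
      _ = b * c := by rw [hc]
  have hτc0 : τ c ≠ 0 := (map_ne_zero τ).2 hc0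
  have hfix : (c⁻¹ • M₁.1).map τ = c⁻¹ • M₁.1 := by
    rw [map_smul_τ, hτM, smul_smul, map_inv₀, hτc]
    congr 1
    field_simp
  obtain ⟨M₀', hM₀'⟩ := C.exists_matrix _ hfix
  have hdet : M₀'.det ≠ 0 := by
    intro h0
    have h2 := congrArg Matrix.det hM₀'
    have h3 : (M₀'.map ι₀).det = ι₀ M₀'.det := (RingHom.map_det ι₀ M₀').symm
    rw [h3, h0, map_zero, Matrix.det_smul] at h2
    exact mul_ne_zero (pow_ne_zero _ (inv_ne_zero hc0)) (gl_det_ne M₁) h2.symm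
  let M₀ : GL (Fin n) F₀ := Matrix.GeneralLinearGroup.mkOfDetNeZero M₀' hdet
  have hM₀ : M₀.1 = M₀' := rfl
  let cu : Fˣ := Units.mk0 c hc0
  have hcu : (cu : F) = c := rfl
  have hk' : k = kOf ι₀ cu P' M₀ P := by
    apply Units.ext
    rw [coe_kOf, hM₀, hM₀', hcu, hM₁]
    simp only [Matrix.smul_mul, Matrix.mul_smul, smul_smul, Matrix.mul_assoc, c3, c1, Matrix.mul_one]
    rw [mul_inv_cancel₀ hc0, one_smul]
  -- unitarity
  have hU : (τ c * c * τ η') • ((M₀.1ᵀ * B.1 * M₀.1).map ι₀) = τ η • A.1.map ι₀ := by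
    have h2 := (C.mem_GU k).1 hk
    rw [hk', coe_kOf] at h2
    have hX' : ∀ X : Matrix (Fin n) (Fin n) F, P'.1ᵀ * (P'.1.map τ * X) = τ η' • (B.1.map ι₀ * X) := by
      intro X
      rw [← Matrix.mul_assoc, R'.hXt C, Matrix.smul_mul]
    simp only [Matrix.transpose_smul, Matrix.transpose_mul, map_smul_τ, map_mul_map, C.map_iota, Matrix.smul_mul,
      Matrix.mul_smul, smul_smul, Matrix.mul_assoc, hX', hcu] at h2
    have h3 := congrArg (fun X : Matrix (Fin n) (Fin n) F => P.1ᵀ * X * P.1.map τ) h2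
    simp only [Matrix.smul_mul, Matrix.mul_smul, smul_smul, Matrix.mul_assoc, e4, d2, Matrix.mul_one, Matrix.one_mul] at h3
    rw [R.hXt C] at h3
    rw [← h3, Matrix.map_mul, Matrix.map_mul, Matrix.mul_assoc]
    congr 1
    ring
  have hA0 : ∃ i j, A.1 i j ≠ 0 := by
    by_contra hcon
    push Not at hcon
    have h9 := gl_det_ne A
    have h0 : A.1 = 0 := by
      ext i j
      exact hcon i j
    rw [h0] at h9
    haveI : Nonempty (Fin n) := ⟨⟨0, by omega⟩⟩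
    exact h9 Matrix.det_zero
  obtain ⟨i₀, j₀, hij⟩ := hA0
  set N := M₀.1ᵀ * B.1 * M₀.1 with hN
  have hent : ∀ i j, (τ c * c * τ η') * ι₀ (N i j) = τ η * ι₀ (A.1 i j) := by
    intro i j
    have h2 := congrFun (congrFun hU i) j
    simpa using h2
  have hcη : τ c * c * τ η' ≠ 0 := mul_ne_zero (mul_ne_zero hτc0 hc0) (R'.τη_ne C)
  have hιA : ι₀ (A.1 i₀ j₀) ≠ 0 := (map_ne_zero ι₀).2 hij
  refine ⟨M₀, N i₀ j₀ / A.1 i₀ j₀, cu, ?_, hk', ?_, ?_⟩
  · intro h0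
    have h2 := hent i₀ j₀
    have h3 : N i₀ j₀ = 0 := (div_eq_zero_iff.1 h0).resolve_right hij
    rw [h3, map_zero, mul_zero] at h2
    exact mul_ne_zero (R.τη_ne C) hιA h2.symm
  · ext i j
    apply ι₀.injective
    rw [Matrix.smul_apply, smul_eq_mul, map_mul, map_div₀]
    have h2 := hent i j
    have h3 := hent i₀ j₀
    apply mul_left_cancel₀ hcη
    rw [h2]
    field_simp
    linear_combination (-(ι₀ (A.1 i j))) * h3
  · rw [map_div₀, hcu]
    have h3 := hent i₀ j₀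
    field_simp
    linear_combination h3

end th

/-! ### The abstract model -/

section model

variable [Fintype F] {τ : F ≃+* F} {ι₀ : F₀ →+* F} {q : ℕ} (C : Ctx τ ι₀ q)

/-- The relation between matrices and automorphisms. -/
def IsRep (C : Ctx τ ι₀ q) (A : GL (Fin n) F₀) (x : MulAut (Cfsg.PSU n F q)) : Prop :=
  ∃ (g P : GL (Fin n) F) (μ η ε : F) (R : Rep τ ι₀ g A P μ η ε), x = Th C.hF n g (R.mem C) τ

include C

/-- Existence of representatives. -/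
theorem exists_rep {A : GL (Fin n) F₀} (hA : Eps A) : ∃ x, IsRep (n := n) C A x := by
  obtain ⟨ε₀, hε₀, hAε⟩ := hA
  have hε : ι₀ ε₀ = 1 ∨ ι₀ ε₀ = -1 := by
    rcases hε₀ with rfl | rfl
    · left
      simp
    · right
      simp
  set ε : F := ι₀ ε₀ with hεd
  have hε0 : ε ≠ 0 := by
    rcases hε with h | h <;> rw [h] <;> simp
  have haT : (A.1.map ι₀)ᵀ = ε • A.1.map ι₀ := by
    have h2 := congrArg (fun Y : Matrix (Fin n) (Fin n) F₀ => Y.map ι₀) hAε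
    refine Eq.trans h2 ?_
    ext i j
    simp [hεd]
  obtain ⟨η, hη0, hη⟩ := C.exists_eta hε
  let XG : GL (Fin n) F := sc n (Units.mk0 η hη0) * emb ι₀ A
  have hXG : XG.1 = η • A.1.map ι₀ := by
    show ((sc n (Units.mk0 η hη0) : GL (Fin n) F) * emb ι₀ A).1 = _
    rw [Units.val_mul, coe_sc, coe_emb, Matrix.smul_mul, Matrix.one_mul]
    rfl
  have hherm : XG.1 = (XG.1.map τ)ᵀ := by
    rw [hXG, map_smul_τ, C.map_iota, Matrix.transpose_smul, haT, hη, smul_smul]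
    congr 1
    linear_combination (-η) * sq_eps hε
  obtain ⟨k, hk⟩ := herm_eq C.hF τ C.hτ C.tt XG hherm
  let P : GL (Fin n) F := (Cfsg.Agent.Lib.KS71.PSLAutGroup.invTrGL (mapGL τ k))⁻¹
  have hP : P.1 = (k.1.map τ)ᵀ := rfl
  have hQ : (P.1.map τ)ᵀ = k.1 := by
    rw [hP, ← map_tr_τ, Matrix.transpose_transpose, C.mapmap]
  obtain ⟨μ, hμ⟩ := C.exists_norm ε hε0 (C.fix _)
  have hμ0 : μ ≠ 0 := by
    rintro rfl
    rw [zero_mul] at hμ
    exact hε0 hμ.symm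
  let g : GL (Fin n) F := sc n (Units.mk0 μ hμ0) * P * (mapGL τ P)⁻¹
  have hg : g.1 = μ • (P.1 * (P⁻¹).1.map τ) := by
    show ((sc n (Units.mk0 μ hμ0) : GL (Fin n) F) * P * (mapGL τ P)⁻¹).1 = _
    rw [Units.val_mul, Units.val_mul, coe_sc, ← mapGL_inv, coe_mapGL, Matrix.smul_mul, Matrix.smul_mul, Matrix.one_mul]
    rfl
  have R : Rep τ ι₀ g A P μ η ε := by
    refine ⟨hε, hμ, hη, hη0, ?_, hg⟩
    rw [hQ, hP, ← hk, hXG]
  exact ⟨_, g, P, μ, η, ε, R, rfl⟩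

theorem mem_of_isRep (hn : 3 ≤ n) {A : GL (Fin n) F₀} {x : MulAut (Cfsg.PSU n F q)} (h : IsRep C A x) :
    Cfsg.IsGraphAutClassPSU x ∧ orderOf x = 2 := by
  obtain ⟨g, P, μ, η, ε, R, rfl⟩ := h
  exact ⟨R.isGraph C hn, R.order_eq C hn⟩

/-- The unique involution of the field. -/
theorem unique_invol {σ : F ≃+* F} (hσ : orderOf σ = 2) : σ = τ := by
  classical
  obtain ⟨p, hp⟩ := CharP.exists F
  obtain ⟨f, hpp, hcard⟩ := FiniteField.card F p
  haveI : Fact p.Prime := ⟨hpp⟩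
  have hf : 1 ≤ (f : ℕ) := f.pos
  obtain ⟨-, h2, h3⟩ := Cfsg.Agent.Lib.KS71.GalFin.invol_eq_frob hcard hf hσ
  have hq : q = p ^ ((f : ℕ) / 2) := by
    have h4 : q ^ 2 = (p ^ ((f : ℕ) / 2)) ^ 2 := by rw [← C.hF, h2]
    exact Nat.pow_left_injective (n := 2) (by norm_num) h4
  ext x
  rw [C.hτ, h3, hq]

/-- All automorphisms of the right kind are parametrised. -/
theorem isRep_of_graph (hn : 3 ≤ n) {x : MulAut (Cfsg.PSU n F q)} (hx : Cfsg.IsGraphAutClassPSU x)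
    (hx2 : orderOf x = 2) : ∃ A : GL (Fin n) F₀, Eps A ∧ IsRep C A x := by
  classical
  obtain ⟨-, δ, φ, σ, hσe, ⟨d, hd, hδ⟩, hφ, rfl⟩ := hx
  have hF := C.hF
  have e1 := eq_Th_of_isInner hF n hd hδ
  have e2 := eq_Th_of_isField hF n hφ
  have e3 : δ * φ = Th hF n d hd σ := by
    rw [e1, e2, Th_mul]
    refine Th_eq_of hF n _ _ ?_ ?_
    · rw [show mapGL (RingEquiv.refl F) (1 : GL (Fin n) F) = 1 from map_one _, mul_one]
    · ext y
      rfl
  rw [e3] at hx2 ⊢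
  have hsq : Th hF n d hd σ * Th hF n d hd σ = 1 := by
    rw [← sq, ← hx2]
    exact pow_orderOf_eq_one _
  rw [Th_mul, ← Th_one hF n] at hsq
  obtain ⟨h1, ζ, hζ, hv⟩ := Th_eq_imp hF n hn _ _ hsq.symm
  have hσ2 : orderOf σ = 2 := by
    have h3 : orderOf σ ∣ 2 := by
      apply orderOf_dvd_of_pow_eq_one
      rw [sq]
      exact h1
    rcases (Nat.dvd_prime Nat.prime_two).1 h3 with h4 | h4
    · rw [h4] at hσe
      exact absurd hσe (by decide)
    · exact h4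
  obtain rfl := unique_invol C hσ2
  have hζ0 : ζ ≠ 0 := by
    rintro rfl
    rw [zero_pow (by omega)] at hζ
    exact zero_ne_one hζ
  have hdd : d.1 * d.1.map σ = ζ • 1 := by
    apply Matrix.mulVec_injective
    funext v
    have h3 := hv v
    rw [Units.val_mul, coe_mapGL] at h3
    rw [h3, Matrix.smul_mulVec]
    simp
  have hdU := (C.mem_GU d).1 hd
  have hdinv : d.1.map σ * d.1ᵀ = 1 := mul_eq_one_comm.1 hdU
  have hdT : d.1 = ζ • d.1ᵀ := by
    calc d.1 = d.1 * (d.1.map σ * d.1ᵀ) := by rw [hdinv, Matrix.mul_one]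
      _ = (d.1 * d.1.map σ) * d.1ᵀ := by rw [Matrix.mul_assoc]
      _ = ζ • d.1ᵀ := by rw [hdd, Matrix.smul_mul, Matrix.one_mul]
  have hd0 : d.1 ≠ 0 := by
    intro h0
    have h9 := gl_det_ne d
    rw [h0] at h9
    haveI : Nonempty (Fin n) := ⟨⟨0, by omega⟩⟩
    exact h9 Matrix.det_zero
  have hζ2 : ζ * ζ = 1 := by
    have h3 : (ζ * ζ - 1) • d.1 = 0 := by
      have h4 : d.1 = (ζ * ζ) • d.1 := by
        have h5 := congrArg Matrix.transpose hdT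
        rw [Matrix.transpose_smul, Matrix.transpose_transpose] at h5
        conv_lhs => rw [hdT, h5, smul_smul]
      rw [sub_smul, one_smul, ← h4, sub_self]
    have h4 := (smul_eq_zero.1 h3).resolve_right hd0
    linear_combination h4
  have hε : ζ = 1 ∨ ζ = -1 := by
    have h3 : (ζ - 1) * (ζ + 1) = 0 := by linear_combination hζ2
    rcases mul_eq_zero.1 h3 with h4 | h4
    · exact Or.inl (sub_eq_zero.1 h4)
    · exact Or.inr (eq_neg_of_add_eq_zero_left h4)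
  obtain ⟨μ, hμ⟩ := C.exists_norm ζ hζ0 (C.eps_fix hε)
  have hμ0 : μ ≠ 0 := by
    rintro rfl
    rw [zero_mul] at hμ
    exact hζ0 hμ.symm
  let μu : Fˣ := Units.mk0 μ hμ0
  have hμu : (μu : F) = μ := rfl
  have hτμ0 : σ μ ≠ 0 := (map_ne_zero σ).2 hμ0
  let g₁ : GL (Fin n) F := sc n μu⁻¹ * d
  have htw : twN σ g₁ 2 = 1 := by
    rw [twN_succ, twN_succ, twN_zero, show mapGL σ (1 : GL (Fin n) F) = 1 from map_one _, mul_one]
    apply Units.ext
    rw [Units.val_mul, coe_mapGL]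
    show ((sc n μu⁻¹ : GL (Fin n) F) * d).1 * (((sc n μu⁻¹ : GL (Fin n) F) * d).1).map σ = 1
    rw [Units.val_mul, coe_sc, Matrix.smul_mul, Matrix.one_mul, map_smul_τ, Matrix.smul_mul, Matrix.mul_smul, hdd,
      smul_smul, smul_smul]
    have hh : ((μu⁻¹ : Fˣ) : F) * σ ((μu⁻¹ : Fˣ) : F) * ζ = 1 := by
      rw [Units.val_inv_eq_inv_val, hμu, map_inv₀, ← hμ]
      field_simp
    rw [hh, one_smul]
  obtain ⟨P, hP⟩ := cocycle σ C.order (by norm_num) g₁ htw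
  have hdP : d.1 = μ • (P.1 * (P⁻¹).1.map σ) := by
    have h3 : g₁ = P * (mapGL σ P)⁻¹ := by
      rw [eq_mul_inv_iff_mul_eq]
      exact hP
    have h4 : g₁.1 = P.1 * (P⁻¹).1.map σ := by
      rw [h3, Units.val_mul, ← mapGL_inv, coe_mapGL]
    rw [← h4]
    show d.1 = μ • ((sc n μu⁻¹ : GL (Fin n) F) * d).1
    rw [Units.val_mul, coe_sc, Matrix.smul_mul, Matrix.one_mul, smul_smul, Units.val_inv_eq_inv_val, hμu,
      mul_inv_cancel₀ hμ0, one_smul]
  -- the matrix `X`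
  set X := (P.1.map σ)ᵀ * P.1 with hXd
  have hXm : X.map σ = P.1ᵀ * P.1.map σ := by
    rw [hXd, map_mul_map, map_tr_τ, C.mapmap]
  have hXT : Xᵀ = X.map σ := by
    rw [hXd, Matrix.transpose_mul, Matrix.transpose_transpose, hXm]
  have hXU : X = ζ • X.map σ := by
    have hdU' := hdU
    rw [hdP] at hdU'
    simp only [Matrix.transpose_smul, Matrix.transpose_mul, map_smul_τ, map_mul_map, C.mapmap, Matrix.smul_mul,
      Matrix.mul_smul, smul_smul, Matrix.mul_assoc] at hdU'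
    have h3 := congrArg (fun Y : Matrix (Fin n) (Fin n) F => (P.1.map σ)ᵀ * Y * P.1) hdU'
    simp only [Matrix.smul_mul, Matrix.mul_smul, smul_smul, Matrix.mul_assoc, f4, c2, Matrix.mul_one, Matrix.one_mul] at h3
    rw [mul_comm, hμ] at h3
    rw [hXm, hXd, ← h3]
  have hXτ : X.map σ = ζ • X := by
    conv_rhs => rw [hXU, smul_smul, hζ2, one_smul]
  obtain ⟨η, hη0, hη⟩ := C.exists_eta hε
  have hfix : (η⁻¹ • X).map σ = η⁻¹ • X := by
    rw [map_smul_τ, hXτ, smul_smul, map_inv₀, hη]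
    congr 1
    field_simp
  obtain ⟨A₀, hA₀⟩ := C.exists_matrix _ hfix
  have hXdet : X.det ≠ 0 := by
    rw [hXd, Matrix.det_mul, Matrix.det_transpose]
    exact mul_ne_zero (gl_det_ne (mapGL σ P)) (gl_det_ne P)
  have hdet : A₀.det ≠ 0 := by
    intro h0
    have h2 := congrArg Matrix.det hA₀
    have h3 : (A₀.map ι₀).det = ι₀ A₀.det := (RingHom.map_det ι₀ A₀).symm
    rw [h3, h0, map_zero, Matrix.det_smul] at h2
    exact mul_ne_zero (pow_ne_zero _ (inv_ne_zero hη0)) hXdet h2.symm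
  let A : GL (Fin n) F₀ := Matrix.GeneralLinearGroup.mkOfDetNeZero A₀ hdet
  have hA : A.1 = A₀ := rfl
  have R : Rep σ ι₀ d A P μ η ζ := by
    refine ⟨hε, hμ, hη, hη0, ?_, hdP⟩
    rw [hA, hA₀, smul_smul, mul_inv_cancel₀ hη0, one_smul]
  have hEps : Eps A := by
    have hT : (A₀ᵀ).map ι₀ = ζ • A₀.map ι₀ := by
      rw [show (A₀ᵀ).map ι₀ = (A₀.map ι₀)ᵀ from rfl, hA₀, Matrix.transpose_smul, hXT, hXτ, smul_comm]
    rcases hε with rfl | rfl
    · refine ⟨1, Or.inl rfl, ?_⟩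
      rw [one_smul]
      rw [one_smul] at hT
      ext i j
      exact ι₀.injective (congrFun (congrFun hT i) j)
    · refine ⟨-1, Or.inr rfl, ?_⟩
      rw [hA]
      ext i j
      apply ι₀.injective
      have h3 := congrFun (congrFun hT i) j
      simpa using h3
  exact ⟨A, hEps, d, P, μ, η, ζ, R, rfl⟩

/-- Conjugacy in terms of the matrices. -/
theorem isConj_iff (hn : 3 ≤ n) {g g' : GL (Fin n) F} {A B : GL (Fin n) F₀} {P P' : GL (Fin n) F}
    {μ μ' η η' ε ε' : F} (R : Rep τ ι₀ g A P μ η ε) (R' : Rep τ ι₀ g' B P' μ' η' ε') :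
    Cfsg.IsConjUnder (Cfsg.inndiagPSU n F q) (Th C.hF n g (R.mem C) τ) (Th C.hF n g' (R'.mem C) τ) ↔
      Cong A.1 B.1 := by
  have hF := C.hF
  constructor
  · rintro ⟨h, hh, e⟩
    obtain ⟨k, rfl⟩ := (mem_inndiag_iff hF n).1 hh
    rw [Th_conj C] at e
    obtain ⟨-, ζ, hζ, hv⟩ := Th_eq_imp hF n hn _ _ e.symm
    have hζ0 : ζ ≠ 0 := by
      rintro rfl
      rw [zero_pow (by omega)] at hζ
      exact zero_ne_one hζ
    have hm : g'.1 = ζ • (k.1.1 * g.1 * ((k.1)⁻¹).1.map τ) := by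
      apply Matrix.mulVec_injective
      funext v
      rw [hv v, Matrix.smul_mulVec]
      rfl
    obtain ⟨M₀, d, c, hd0, -, hM, -⟩ := conj_fwd C R R' (by omega) k.1 k.2 hζ0 hm
    have h1 : Cong B.1 A.1 :=
      ⟨M₀.1, (M₀⁻¹).1, Units.mk0 d hd0, c1 M₀, c2 M₀, hM⟩
    exact h1.symm
  · intro hc
    obtain ⟨M, M', du, h1, h2, h3⟩ := hc.symm
    let M₀ : GL (Fin n) F₀ := ⟨M, M', h1, h2⟩
    have hM₀ : M₀.1 = M := rfl
    have hA0 : A.1.map ι₀ ≠ 0 := by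
      intro h0
      have h9 := gl_det_ne (emb ι₀ A)
      rw [coe_emb, h0] at h9
      haveI : Nonempty (Fin n) := ⟨⟨0, by omega⟩⟩
      exact h9 Matrix.det_zero
    have hιd : ι₀ du ≠ 0 := (map_ne_zero ι₀).2 du.ne_zero
    -- the signs agree
    have hεε : ε = ε' := by
      have h4 : (M.map ι₀)ᵀ * (B.1.map ι₀ * M.map ι₀) = ι₀ du • A.1.map ι₀ := by
        have h5 := map_sim C (M₀ := M₀) (d := (du : F₀)) (X := 1) h3
        simpa using h5
      have h4' : (M.map ι₀)ᵀ * B.1.map ι₀ * M.map ι₀ = ι₀ du • A.1.map ι₀ := by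
        rw [Matrix.mul_assoc]
        exact h4
      have h5 := congrArg Matrix.transpose h4
      rw [Matrix.transpose_mul, Matrix.transpose_mul, Matrix.transpose_transpose, R'.aT C, Matrix.transpose_smul,
        R.aT C, Matrix.mul_smul, Matrix.smul_mul, h4', smul_smul, smul_smul] at h5
      have h6 : (ε' * ι₀ du - ι₀ du * ε) • A.1.map ι₀ = 0 := by
        rw [sub_smul, h5, sub_self]
      have h7 := (smul_eq_zero.1 h6).resolve_right hA0
      have h8 : ι₀ du * (ε' - ε) = 0 := by linear_combination h7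
      exact (sub_eq_zero.1 ((mul_eq_zero.1 h8).resolve_left hιd)).symm
    subst hεε
    have hη0 := R.hη0
    have hη'0 := R'.hη0
    have hτη0 := R.τη_ne C
    have hτη'0 := R'.τη_ne C
    have hε0 := R.ε_ne C
    -- the scalar
    set t : F := τ η / (ι₀ du * τ η') with ht
    have ht0 : t ≠ 0 := div_ne_zero hτη0 (mul_ne_zero hιd hτη'0)
    have htt : τ t = t := by
      rw [ht, map_div₀, map_mul, C.fix, C.tt, C.tt, R.hη, R'.hη]
      field_simp
    obtain ⟨c, hc⟩ := C.exists_norm t ht0 htt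
    have hc0 : c ≠ 0 := by
      rintro rfl
      rw [zero_mul] at hc
      exact ht0 hc.symm
    let cu : Fˣ := Units.mk0 c hc0
    have hcu : (cu : F) = c := rfl
    have hN : ι₀ (du : F₀) * ((cu : F) * τ cu) * τ η' = τ η := by
      rw [hcu, hc, ht]
      field_simp
    have hk := kOf_mem C R R' (M₀ := M₀) (d := (du : F₀)) h3 hN
    refine ⟨piG hF n ⟨_, hk⟩, (mem_inndiag_iff hF n).2 ⟨_, rfl⟩, ?_⟩
    rw [Th_conj C]
    have h5 := kOf_conj C R R' M₀ cu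
    have hτc0 : τ (cu : F) ≠ 0 := (map_ne_zero τ).2 cu.ne_zero
    refine Th_scalar hF n _ _ τ (div_ne_zero (mul_ne_zero hτc0 (R'.μ_ne C)) (mul_ne_zero cu.ne_zero (R.μ_ne C))) ?_
    rw [h5]
    rfl

/-- Elements of the unitary group inducing the identity. -/
theorem piG_eq_one_iff (hn : 3 ≤ n) (k : Cfsg.GU n F q) :
    piG C.hF n k = 1 ↔ ∃ z : Fˣ, k.1.1 = (z : F) • 1 := by
  have hF := C.hF
  constructor
  · intro h
    rw [piG_apply, ← Th_one hF n] at h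
    obtain ⟨-, ζ, hζ, hv⟩ := Th_eq_imp hF n hn _ _ h.symm
    have hζ0 : ζ ≠ 0 := by
      rintro rfl
      rw [zero_pow (by omega)] at hζ
      exact zero_ne_one hζ
    refine ⟨Units.mk0 ζ hζ0, ?_⟩
    apply Matrix.mulVec_injective
    funext v
    rw [hv v, Matrix.smul_mulVec]
    simp
  · rintro ⟨z, hz⟩
    rw [piG_apply, ← Th_one hF n]
    refine Th_scalar hF n _ _ _ z.ne_zero ?_
    rw [hz]
    rfl

/-- The centraliser in terms of the matrices. -/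
theorem mem_comap_iff' (hn : 3 ≤ n) {g : GL (Fin n) F} {A : GL (Fin n) F₀} {P : GL (Fin n) F} {μ η ε : F}
    (R : Rep τ ι₀ g A P μ η ε) (k : Cfsg.GU n F q) :
    k ∈ (Subgroup.centralizer {Th C.hF n g (R.mem C) τ}).comap (piG C.hF n) ↔
      ∃ (M₀ : GL (Fin n) F₀) (d : F₀) (c : Fˣ), d ≠ 0 ∧ k.1 = kOf ι₀ c P M₀ P ∧ M₀.1ᵀ * A.1 * M₀.1 = d • A.1 ∧
        ι₀ d * ((c : F) * τ c) = 1 := by
  have hF := C.hF
  have hτη := R.τη_ne C
  have h0 : k ∈ (Subgroup.centralizer {Th hF n g (R.mem C) τ}).comap (piG hF n) ↔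
      piG hF n k * Th hF n g (R.mem C) τ * (piG hF n k)⁻¹ = Th hF n g (R.mem C) τ := by
    rw [Subgroup.mem_comap, Subgroup.mem_centralizer_iff, mul_inv_eq_iff_eq_mul]
    constructor
    · intro h
      exact (h _ rfl).symm
    · rintro h _ rfl
      exact h.symm
  rw [h0, Th_conj C]
  constructor
  · intro e
    obtain ⟨-, ζ, hζ, hv⟩ := Th_eq_imp hF n hn _ _ e
    have hζ0 : ζ ≠ 0 := by
      rintro rfl
      rw [zero_pow (by omega)] at hζ
      exact zero_ne_one hζ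
    have hm : g.1 = ζ • (k.1.1 * g.1 * ((k.1)⁻¹).1.map τ) := by
      apply Matrix.mulVec_injective
      funext v
      rw [hv v, Matrix.smul_mulVec]
      rfl
    obtain ⟨M₀, d, c, hd0, hk, hM, hN⟩ := conj_fwd C R R (by omega) k.1 k.2 hζ0 hm
    refine ⟨M₀, d, c, hd0, hk, hM, ?_⟩
    exact mul_right_cancel₀ hτη (by rw [hN, one_mul])
  · rintro ⟨M₀, d, c, hd0, hk, hM, hN⟩
    have h5 := kOf_conj C R R M₀ c
    have hτc0 : τ (c : F) ≠ 0 := (map_ne_zero τ).2 c.ne_zero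
    symm
    refine Th_scalar hF n _ _ τ (div_ne_zero (mul_ne_zero hτc0 (R.μ_ne C)) (mul_ne_zero c.ne_zero (R.μ_ne C))) ?_
    rw [hk]
    exact h5

theorem kOf_mul (P : GL (Fin n) F) (c c' : Fˣ) (M M' : GL (Fin n) F₀) :
    kOf ι₀ c P M P * kOf ι₀ c' P M' P = kOf ι₀ (c * c') P (M * M') P := by
  apply Units.ext
  rw [Units.val_mul, coe_kOf, coe_kOf, coe_kOf, Units.val_mul, Units.val_mul, Matrix.map_mul]
  simp only [Matrix.smul_mul, Matrix.mul_smul, smul_smul, Matrix.mul_assoc, c4]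
  rw [mul_comm]

omit C in
/-- The auxiliary group. -/
def DGrp (τ : F ≃+* F) (ι₀ : F₀ →+* F) (A : GL (Fin n) F₀) : Subgroup (GL (Fin n) F₀ × Fˣ) where
  carrier := {x | ∃ d : F₀, x.1.1ᵀ * A.1 * x.1.1 = d • A.1 ∧ ι₀ d * ((x.2 : F) * τ x.2) = 1}
  mul_mem' := by
    rintro ⟨a, u⟩ ⟨b, v⟩ ⟨d, hd, hd'⟩ ⟨e, he, he'⟩
    refine ⟨d * e, ?_, ?_⟩
    · show (a * b).1ᵀ * A.1 * (a * b).1 = _
      rw [Units.val_mul, Matrix.transpose_mul]
      calc b.1ᵀ * a.1ᵀ * A.1 * (a.1 * b.1) = b.1ᵀ * (a.1ᵀ * A.1 * a.1) * b.1 := by simp only [Matrix.mul_assoc]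
        _ = _ := by rw [hd, Matrix.mul_smul, Matrix.smul_mul, he, smul_smul]
    · show ι₀ (d * e) * (((u * v : Fˣ) : F) * τ ((u * v : Fˣ) : F)) = 1
      rw [Units.val_mul, map_mul, map_mul]
      linear_combination (ι₀ e * ((v : F) * τ v)) * hd' + he'
  one_mem' := ⟨1, by simp, by simp⟩
  inv_mem' := by
    rintro ⟨a, u⟩ ⟨d, hd, hd'⟩
    have hd0 : d ≠ 0 := by
      rintro rfl
      rw [map_zero, zero_mul] at hd'
      exact zero_ne_one hd'
    refine ⟨d⁻¹, ?_, ?_⟩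
    · show (a⁻¹).1ᵀ * A.1 * (a⁻¹).1 = _
      have h3 := congrArg (fun X : Matrix (Fin n) (Fin n) F₀ => (a⁻¹).1ᵀ * X * (a⁻¹).1) hd
      simp only [Matrix.mul_assoc, c1, e3, Matrix.mul_one, Matrix.mul_smul, Matrix.smul_mul] at h3
      rw [Matrix.mul_assoc]
      conv_rhs => rw [h3, smul_smul, inv_mul_cancel₀ hd0, one_smul]
    · show ι₀ d⁻¹ * (((u⁻¹ : Fˣ) : F) * τ ((u⁻¹ : Fˣ) : F)) = 1
      have hu : (u : F) ≠ 0 := u.ne_zero
      have hτu : τ (u : F) ≠ 0 := (map_ne_zero τ).2 hu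
      rw [map_inv₀, Units.val_inv_eq_inv_val, map_inv₀]
      have hιd : ι₀ d ≠ 0 := (map_ne_zero ι₀).2 hd0
      field_simp
      linear_combination (-1 : F) * hd'

/-- The centraliser. -/
theorem cent_iso (hn : 3 ≤ n) {g : GL (Fin n) F} {A : GL (Fin n) F₀} {P : GL (Fin n) F} {μ η ε : F}
    (R : Rep τ ι₀ g A P μ η ε) :
    Nonempty (↥(Cfsg.inndiagPSU n F q ⊓ Subgroup.centralizer {Th C.hF n g (R.mem C) τ}) ≃*
      Cfsg.projQuot (simG A.1)) := by
  classical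
  have hF := C.hF
  let D := DGrp τ ι₀ A
  have hkm : ∀ x : D, kOf ι₀ x.1.2 P x.1.1 P ∈ Cfsg.GU n F q := by
    rintro ⟨⟨a, u⟩, d, hd, hd'⟩
    refine kOf_mem C R R hd ?_
    rw [hd', one_mul]
  let φ : D →* Cfsg.GU n F q :=
    { toFun := fun x => ⟨_, hkm x⟩
      map_one' := by
        apply Subtype.ext
        apply Units.ext
        show (kOf ι₀ (1 : Fˣ) P (1 : GL (Fin n) F₀) P).1 = 1
        rw [coe_kOf]
        simp [c1, map_one_τ]
      map_mul' := fun x y => by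
        apply Subtype.ext
        exact (kOf_mul C P _ _ _ _).symm }
  have hmem : ∀ x : D, piG hF n (φ x) ∈ Cfsg.inndiagPSU n F q ⊓ Subgroup.centralizer {Th hF n g (R.mem C) τ} := by
    intro x
    refine ⟨(mem_inndiag_iff hF n).2 ⟨_, rfl⟩, ?_⟩
    have h1 : φ x ∈ (Subgroup.centralizer {Th hF n g (R.mem C) τ}).comap (piG hF n) := by
      rw [mem_comap_iff' C hn R]
      obtain ⟨⟨a, u⟩, d, hd, hd'⟩ := x
      have hd0 : d ≠ 0 := by
        rintro rfl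
        rw [map_zero, zero_mul] at hd'
        exact zero_ne_one hd'
      exact ⟨a, d, u, hd0, rfl, hd, hd'⟩
    exact h1
  let f₁ : D →* ↥(Cfsg.inndiagPSU n F q ⊓ Subgroup.centralizer {Th hF n g (R.mem C) τ}) :=
    ((piG hF n).comp φ).codRestrict _ hmem
  have hsim : ∀ x : D, x.1.1 ∈ simG A.1 := by
    rintro ⟨⟨a, u⟩, d, hd, hd'⟩
    have hd0 : d ≠ 0 := by
      rintro rfl
      rw [map_zero, zero_mul] at hd'
      exact zero_ne_one hd'
    exact ⟨Units.mk0 d hd0, hd⟩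
  let ψ : D →* simG A.1 :=
    ((MonoidHom.fst _ _).comp D.subtype).codRestrict _ hsim
  let f₂ : D →* Cfsg.projQuot (simG A.1) := (QuotientGroup.mk' _).comp ψ
  have hf₁ : Function.Surjective f₁ := by
    rintro ⟨δ, hδ₁, hδ₂⟩
    obtain ⟨k, rfl⟩ := (mem_inndiag_iff hF n).1 hδ₁
    have h1 : k ∈ (Subgroup.centralizer {Th hF n g (R.mem C) τ}).comap (piG hF n) := hδ₂
    obtain ⟨M₀, d, c, hd0, hk, hM, hN⟩ := (mem_comap_iff' C hn R k).1 h1
    refine ⟨⟨(M₀, c), d, hM, hN⟩, ?_⟩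
    apply Subtype.ext
    show piG hF n (φ _) = piG hF n k
    congr 1
    apply Subtype.ext
    exact hk.symm
  have hf₂ : Function.Surjective f₂ := by
    intro y
    obtain ⟨⟨M, d, hd⟩, rfl⟩ := QuotientGroup.mk_surjective y
    have hιd : ι₀ (d : F₀) ≠ 0 := (map_ne_zero ι₀).2 d.ne_zero
    obtain ⟨c, hc⟩ := C.exists_norm (ι₀ (d : F₀))⁻¹ (inv_ne_zero hιd) (by rw [map_inv₀, C.fix])
    have hc0 : c ≠ 0 := by
      rintro rfl
      rw [zero_mul] at hc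
      exact inv_ne_zero hιd hc.symm
    refine ⟨⟨(M, Units.mk0 c hc0), (d : F₀), hd, ?_⟩, rfl⟩
    show ι₀ (d : F₀) * (c * τ c) = 1
    rw [hc, mul_inv_cancel₀ hιd]
  refine iso_of_same_ker f₁ f₂ hf₁ hf₂ ?_
  ext x
  rw [MonoidHom.mem_ker, MonoidHom.mem_ker]
  have h1 : f₁ x = 1 ↔ piG hF n (φ x) = 1 := by
    constructor
    · intro h
      exact congrArg Subtype.val h
    · intro h
      exact Subtype.ext h
  have h2 : f₂ x = 1 ↔ x.1.1 ∈ Cfsg.Geo.scalars (Fin n) F₀ := by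
    show (QuotientGroup.mk (ψ x) : Cfsg.projQuot (simG A.1)) = 1 ↔ _
    rw [QuotientGroup.eq_one_iff, Subgroup.mem_subgroupOf]
    rfl
  rw [h1, h2, piG_eq_one_iff C hn, Cfsg.Geo.mem_scalars_iff]
  have hcoe : (φ x).1.1 = (x.1.2 : F) • (P.1 * (x.1.1.1.map ι₀ * (P⁻¹).1)) := coe_kOf _ _ _ _ _
  rw [hcoe]
  constructor
  · rintro ⟨z, hz⟩
    have h3 : x.1.1.1.map ι₀ = ((z : F) / x.1.2) • 1 := by
      have h4 := congrArg (fun X : Matrix (Fin n) (Fin n) F => (P⁻¹).1 * X * P.1) hz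
      simp only [Matrix.smul_mul, Matrix.mul_smul, smul_smul, Matrix.mul_assoc, c4, c2, Matrix.mul_one, Matrix.one_mul] at h4
      have hc0 : (x.1.2 : F) ≠ 0 := x.1.2.ne_zero
      calc x.1.1.1.map ι₀ = (x.1.2 : F)⁻¹ • ((x.1.2 : F) • x.1.1.1.map ι₀) := by
            rw [smul_smul, inv_mul_cancel₀ hc0, one_smul]
        _ = _ := by
            rw [h4, smul_smul, div_eq_inv_mul]
    have h5 : ∀ i j, i ≠ j → x.1.1.1 i j = 0 := by
      intro i j hij
      have h6 := congrFun (congrFun h3 i) j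
      simp only [Matrix.map_apply, Matrix.smul_apply, Matrix.one_apply_ne hij, smul_zero] at h6
      exact (map_eq_zero ι₀).1 h6
    let i₀ : Fin n := ⟨0, by omega⟩
    have h6 : ∀ i, x.1.1.1 i i = x.1.1.1 i₀ i₀ := by
      intro i
      apply ι₀.injective
      have h7 := congrFun (congrFun h3 i) i
      have h8 := congrFun (congrFun h3 i₀) i₀
      simp only [Matrix.map_apply, Matrix.smul_apply, Matrix.one_apply_eq] at h7 h8
      rw [h7, h8]
    have h7 : x.1.1.1 = x.1.1.1 i₀ i₀ • 1 := by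
      ext i j
      by_cases hij : i = j
      · subst hij
        simp [h6]
      · simp [h5 i j hij, Matrix.one_apply_ne hij]
    have h8 : x.1.1.1 i₀ i₀ ≠ 0 := by
      intro h0
      have h9 := gl_det_ne x.1.1
      rw [h7, h0, zero_smul] at h9
      haveI : Nonempty (Fin n) := ⟨i₀⟩
      exact h9 Matrix.det_zero
    exact ⟨Units.mk0 _ h8, h7⟩
  · rintro ⟨w, hw⟩
    have hι0 : ι₀ (w : F₀) ≠ 0 := (map_ne_zero ι₀).2 w.ne_zero
    refine ⟨x.1.2 * Units.mk0 (ι₀ (w : F₀)) hι0, ?_⟩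
    have h3 : x.1.1.1.map ι₀ = ι₀ (w : F₀) • 1 := by
      rw [hw]
      ext i j
      by_cases hij : i = j
      · subst hij
        simp
      · simp [Matrix.one_apply_ne hij]
    rw [h3]
    simp only [Matrix.smul_mul, Matrix.mul_smul, smul_smul, Matrix.one_mul, c1, Units.val_mul]
    rfl

/-- **The model.** -/
theorem model (hn : 3 ≤ n) :
    GModel F₀ n (Cfsg.inndiagPSU n F q) Cfsg.IsGraphAutClassPSU (IsRep (n := n) C) where
  ex A hA := exists_rep C hA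
  mem A x _ h := mem_of_isRep C hn h
  surj x hx hx2 := isRep_of_graph C hn hx hx2
  conj A B x y _ _ hx hy := by
    obtain ⟨g, P, μ, η, ε, R, rfl⟩ := hx
    obtain ⟨g', P', μ', η', ε', R', rfl⟩ := hy
    exact isConj_iff C hn R R'
  cent A x _ hx := by
    obtain ⟨g, P, μ, η, ε, R, rfl⟩ := hx
    exact cent_iso C hn R

end model

/-! ### Existence of the context -/

section ctx

variable [Fintype F] [Fintype F₀] {q : ℕ}

/-- The context for a given Frobenius. -/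
theorem exists_ctx_of (hF : Fintype.card F = q ^ 2) (hF₀ : Fintype.card F₀ = q) (σ : F ≃+* F)
    (hσ : ∀ a : F, σ a = a ^ q) : ∃ ι₀ : F₀ →+* F, Ctx σ ι₀ q := by
  classical
  obtain ⟨p, hp⟩ := CharP.exists F₀
  obtain ⟨f, hpp, hcard⟩ := FiniteField.card F₀ p
  haveI : Fact p.Prime := ⟨hpp⟩
  have hF2 : Fintype.card F = p ^ ((f : ℕ) * 2) := by
    rw [hF, ← hF₀, hcard, pow_mul]
  have hord : orderOf σ = 2 := by
    refine orderOf_eq_prime ?_ ?_
    · ext x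
      rw [sq]
      show σ (σ x) = x
      rw [hσ, hσ]
      exact frob_frob hF x
    · intro h
      obtain ⟨x, hx⟩ := exists_frob_ne hF
      apply hx
      rw [← hσ, h]
      rfl
  have hf : 1 ≤ (f : ℕ) * 2 := by
    have := f.pos
    omega
  have hdiv : (f : ℕ) * 2 / orderOf σ = f := by
    rw [hord]
    omega
  obtain ⟨ι₀, hι₀⟩ := Cfsg.Agent.Lib.KS71.PSLCent.exists_embed hF2 hf σ (F₀ := F₀) (by rw [hdiv]; exact hcard)
  exact ⟨ι₀, hF, hσ, hι₀⟩

/-- The context. -/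
theorem exists_ctx (hF : Fintype.card F = q ^ 2) (hF₀ : Fintype.card F₀ = q) :
    ∃ (τ : F ≃+* F) (ι₀ : F₀ →+* F), Ctx τ ι₀ q := by
  let τ : F ≃+* F := RingEquiv.ofBijective (frobHom hF) (Finite.injective_iff_bijective.1 (frobHom hF).injective)
  obtain ⟨ι₀, h⟩ := exists_ctx_of hF hF₀ τ (fun a => rfl)
  exact ⟨τ, ι₀, h⟩

end ctx

end Cfsg.Agent.Lib.GraphInv.PSURep
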