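/-
The number of `PSU`-classes in the `PGU`-class of an involutory graph automorphism.
-/
import Mathlib
import Cfsg.Agent.Lib.GraphInv.PSURep

set_option autoImplicit false
set_option linter.unusedSimpArgs false
set_option linter.unusedSectionVars false
set_option linter.unusedVariables false
set_option linter.style.haveILetI false

namespace Cfsg.Agent.Lib.GraphInv.PSUCount

open Matrix
open scoped MatrixGroups
open Cfsg.Agent.Lib.GraphInv.Sim Cfsg.Agent.Lib.GraphInv.Forms Cfsg.Agent.Lib.GraphInv.Char2A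
  Cfsg.Agent.Lib.GraphInv.Model Cfsg.Agent.Lib.GraphInv.DetSim Cfsg.Agent.Lib.GraphInv.Orders
  Cfsg.Agent.Lib.GraphInv.PSURep
open Cfsg.Agent.Lib.AutCl.PSUAut Cfsg.Agent.Lib.AutCl.PSUGroup
open Cfsg.Agent.Lib.KS71.PSLCent (dt coe_dt)

universe u v

variable {F : Type u} [Field F] [Fintype F] {F₀ : Type v} [Field F₀] {n : ℕ}
  {τ : F ≃+* F} {ι₀ : F₀ →+* F} {q : ℕ} (C : Ctx τ ι₀ q)

include C

theorem pow_succ_eq (v : F) : v ^ (q + 1) = v * τ v := by
  rw [C.hτ, pow_succ']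

/-- The norm one group from an equation. -/
noncomputable def mkU (C : Ctx τ ι₀ q) (v : F) (hv : v * τ v = 1) : U1 F q :=
  ⟨Units.mk0 v (left_ne_zero_of_mul_eq_one hv), (mem_U1).2 (by
    show v ^ (q + 1) = 1
    rw [pow_succ_eq C, hv])⟩

theorem coe_mkU (v : F) (hv : v * τ v = 1) : (((mkU C v hv : U1 F q) : Fˣ) : F) = v := rfl

theorem norm_U1 (u : U1 F q) : ((u : Fˣ) : F) * τ ((u : Fˣ) : F) = 1 := by
  rw [← pow_succ_eq C]
  exact (mem_U1).1 u.2

/-- The elements of the norm one group as quotients. -/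
theorem exists_cd {v : F} (hv : v * τ v = 1) :
    ∃ (c : Fˣ) (d : F₀ˣ), ι₀ (d : F₀) * ((c : F) * τ c) = 1 ∧ (c : F) ^ 2 * ι₀ (d : F₀) = v := by
  obtain ⟨c, hc0, hc⟩ := C.h90 hv
  have hτc0 : τ c ≠ 0 := (map_ne_zero τ).2 hc0
  have hfix : τ (c * τ c)⁻¹ = (c * τ c)⁻¹ := by
    rw [map_inv₀, map_mul, C.tt, mul_comm]
  obtain ⟨d, hd⟩ := (C.hι _).1 hfix
  have hd0 : d ≠ 0 := by
    rintro rfl
    rw [map_zero] at hd
    exact inv_ne_zero (mul_ne_zero hc0 hτc0) hd.symm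
  refine ⟨Units.mk0 c hc0, Units.mk0 d hd0, ?_, ?_⟩
  · show ι₀ d * (c * τ c) = 1
    rw [hd, inv_mul_cancel₀ (mul_ne_zero hc0 hτc0)]
  · show c ^ 2 * ι₀ d = v
    rw [hd]
    conv_rhs => rw [show v = v * τ c / τ c by field_simp, hc]
    field_simp

/-- The image of the centraliser under the determinant. -/
theorem mem_DU (hn : 3 ≤ n) {g : GL (Fin n) F} {A : GL (Fin n) F₀} {P : GL (Fin n) F} {μ η ε : F}
    (R : Rep τ ι₀ g A P μ η ε) (u : U1 F q) :
    u ∈ ((Subgroup.centralizer {Th C.hF n g (R.mem C) τ}).comap (piG C.hF n)).map (detU C.hF n) ↔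
      ∃ (M₀ : GL (Fin n) F₀) (d : F₀) (c : Fˣ), d ≠ 0 ∧ M₀.1ᵀ * A.1 * M₀.1 = d • A.1 ∧
        ι₀ d * ((c : F) * τ c) = 1 ∧ ((u : Fˣ) : F) = (c : F) ^ n * ι₀ M₀.1.det := by
  have hF := C.hF
  have hdet : ∀ (c : Fˣ) (M₀ : GL (Fin n) F₀), ((dt (kOf ι₀ c P M₀ P) : Fˣ) : F) = (c : F) ^ n * ι₀ M₀.1.det := by
    intro c M₀
    rw [coe_dt, coe_kOf, Matrix.det_smul, Fintype.card_fin, Matrix.det_mul, Matrix.det_mul,
      RingHom.map_det]
    have h1 : P.1.det * (P⁻¹).1.det = 1 := by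
      rw [← Matrix.det_mul, c1, Matrix.det_one]
    have h2 : (M₀.1.map ι₀).det = (ι₀.mapMatrix M₀.1).det := rfl
    rw [h2]
    linear_combination ((c : F) ^ n * (ι₀.mapMatrix M₀.1).det) * h1
  constructor
  · rintro ⟨k, hk, rfl⟩
    obtain ⟨M₀, d, c, hd0, hk', hM, hN⟩ := (mem_comap_iff' C hn R k).1 hk
    refine ⟨M₀, d, c, hd0, hM, hN, ?_⟩
    rw [← hdet, ← hk']
    rfl
  · rintro ⟨M₀, d, c, hd0, hM, hN, hu⟩
    have hmem : kOf ι₀ c P M₀ P ∈ Cfsg.GU n F q := kOf_mem C R R hM (by rw [hN, one_mul])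
    refine ⟨⟨_, hmem⟩, ?_, ?_⟩
    · exact (mem_comap_iff' C hn R _).2 ⟨M₀, d, c, hd0, rfl, hM, hN⟩
    · apply Subtype.ext
      apply Units.ext
      rw [hu, ← hdet]
      rfl

omit C in
/-- The determinant of a similitude when `n` is odd or the characteristic is two. -/
theorem det_root [Finite F₀] (hc : Odd n ∨ (2 : F₀) = 0) {A : Matrix (Fin n) (Fin n) F₀} (hd : A.det ≠ 0)
    {k : Matrix (Fin n) (Fin n) F₀} {d : F₀} (hd0 : d ≠ 0) (h : kᵀ * A * k = d • A) :
    ∃ e : F₀, e ^ 2 = d ∧ k.det = e ^ n := by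
  haveI : Fintype F₀ := Fintype.ofFinite F₀
  have h1 := det_sq_of_sim hd h
  rw [Fintype.card_fin] at h1
  by_cases h2 : (2 : F₀) = 0
  · haveI : CharP F₀ 2 := CharTwo.of_one_ne_zero_of_two_eq_zero one_ne_zero h2
    obtain ⟨e, he⟩ := exists_sqrt d
    refine ⟨e, he, ?_⟩
    apply sq_inj'
    rw [h1, ← he, ← pow_mul, ← pow_mul, mul_comm]
  · obtain ⟨t, rfl⟩ := hc.resolve_right h2
    set e : F₀ := k.det * (d⁻¹) ^ t with hed
    have he : e ^ 2 = d := by
      rw [hed, mul_pow, h1, ← pow_mul, inv_pow, pow_succ, mul_comm 2 t]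
      field_simp
    have h3 : k.det ^ 2 = (e ^ (2 * t + 1)) ^ 2 := by
      rw [h1, pow_right_comm, he]
    rcases sq_eq_sq_iff_eq_or_eq_neg.1 h3 with h4 | h4
    · exact ⟨e, he, h4⟩
    · refine ⟨-e, by rw [neg_sq, he], ?_⟩
      have hod : Odd (2 * t + 1) := ⟨t, rfl⟩
      rw [h4, hod.neg_pow]

variable {g : GL (Fin n) F} {A : GL (Fin n) F₀} {P : GL (Fin n) F} {μ η ε : F}
  (R : Rep τ ι₀ g A P μ η ε)

include R

/-- The image when `n` is odd or the characteristic is two. -/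
theorem DU_range [Finite F₀] (hn : 3 ≤ n) (hc : Odd n ∨ (2 : F₀) = 0) :
    ((Subgroup.centralizer {Th C.hF n g (R.mem C) τ}).comap (piG C.hF n)).map (detU C.hF n) =
      (powMonoidHom n : U1 F q →* U1 F q).range := by
  ext u
  rw [mem_DU C hn R]
  constructor
  · rintro ⟨M₀, d, c, hd0, hM, hN, hu⟩
    obtain ⟨e, he, hdet⟩ := det_root hc (gl_det_ne A) hd0 hM
    have hv : ((c : F) * ι₀ e) * τ ((c : F) * ι₀ e) = 1 := by
      rw [map_mul, C.fix, ← hN, ← he, map_pow]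
      ring
    refine ⟨mkU C _ hv, ?_⟩
    apply Subtype.ext
    apply Units.ext
    rw [hu, hdet, map_pow]
    show (((mkU C _ hv : U1 F q) ^ n : U1 F q) : Fˣ).1 = _
    simp [coe_mkU, mul_pow]
  · rintro ⟨v, rfl⟩
    refine ⟨1, 1, (v : Fˣ), one_ne_zero, by simp, ?_, ?_⟩
    · rw [map_one, one_mul]
      exact norm_U1 C v
    · simp

/-- The image for alternating forms. -/
theorem DU_alt [Fintype F₀] {m : ℕ} (hn : 3 ≤ n) (hA : ∀ x : Fin n → F₀, x ⬝ᵥ (A.1 *ᵥ x) = 0) (hc : n = 2 * m) :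
    ((Subgroup.centralizer {Th C.hF n g (R.mem C) τ}).comap (piG C.hF n)).map (detU C.hF n) =
      (powMonoidHom m : U1 F q →* U1 F q).range := by
  have hcard : Fintype.card (Fin n) = 2 * m := by simp [hc]
  ext u
  rw [mem_DU C hn R]
  constructor
  · rintro ⟨M₀, d, c, hd0, hM, hN, hu⟩
    have hdet := det_of_alt hA (gl_det_ne A) hcard (d := Units.mk0 d hd0) hM
    have hdet' : M₀.1.det = d ^ m := hdet
    have hv : ((c : F) ^ 2 * ι₀ d) * τ ((c : F) ^ 2 * ι₀ d) = 1 := by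
      rw [map_mul, C.fix, map_pow]
      linear_combination ((c : F) * τ c * ι₀ d + 1) * hN
    refine ⟨mkU C _ hv, ?_⟩
    apply Subtype.ext
    apply Units.ext
    rw [hu, hdet', map_pow]
    show (((mkU C _ hv : U1 F q) ^ m : U1 F q) : Fˣ).1 = _
    simp only [SubmonoidClass.coe_pow, Units.val_pow_eq_pow_val]
    rw [coe_mkU, mul_pow, ← pow_mul, hc]
  · rintro ⟨v, rfl⟩
    obtain ⟨c, d, hN, hv⟩ := exists_cd C (norm_U1 C v)
    obtain ⟨M₀, hM⟩ := exists_sim_alt hA (gl_det_ne A) hcard d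
    have hdet := det_of_alt hA (gl_det_ne A) hcard hM
    refine ⟨M₀, d, c, d.ne_zero, hM, hN, ?_⟩
    show ((v ^ m : U1 F q) : Fˣ).1 = _
    simp only [SubmonoidClass.coe_pow, Units.val_pow_eq_pow_val]
    rw [hdet, map_pow, ← hv, mul_pow, ← pow_mul, hc]

omit R C in
/-- The element `-1` of the norm one group. -/
noncomputable def negU (C : Ctx τ ι₀ q) : U1 F q :=
  mkU C (-1) (by simp)

/-- The image for symmetric forms. -/
theorem DU_sym [Fintype F₀] {m : ℕ} (h2 : (2 : F₀) ≠ 0) (hn : 3 ≤ n) (hS : A.1ᵀ = A.1) (hc : n = 2 * m) :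
    ((Subgroup.centralizer {Th C.hF n g (R.mem C) τ}).comap (piG C.hF n)).map (detU C.hF n) =
      (powMonoidHom m : U1 F q →* U1 F q).range ⊔ Subgroup.zpowers (negU C) := by
  have hcard : Fintype.card (Fin n) = 2 * m := by simp [hc]
  have hsign : ∀ (k : GL (Fin n) F₀) (d : F₀), k.1ᵀ * A.1 * k.1 = d • A.1 → k.1.det = d ^ m ∨ k.1.det = -(d ^ m) := by
    intro k d hk
    have h1 := det_sq_of_sim (gl_det_ne A) hk
    rw [hcard, pow_mul'] at h1
    exact sq_eq_sq_iff_eq_or_eq_neg.1 h1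
  have hA0 : A.1 ≠ 0 := by
    intro h0
    have h9 := gl_det_ne A
    rw [h0] at h9
    haveI : Nonempty (Fin n) := ⟨⟨0, by omega⟩⟩
    exact h9 Matrix.det_zero
  obtain ⟨r, hr1, hr2⟩ := exists_refl h2 hS hA0
  have hneg : negU C ∈ ((Subgroup.centralizer {Th C.hF n g (R.mem C) τ}).comap (piG C.hF n)).map (detU C.hF n) := by
    rw [mem_DU C hn R]
    refine ⟨r, 1, 1, one_ne_zero, by rw [one_smul]; exact hr1, by simp, ?_⟩
    rw [hr2]
    simp [negU, coe_mkU]
  apply le_antisymm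
  · intro u hu
    rw [mem_DU C hn R] at hu
    obtain ⟨M₀, d, c, hd0, hM, hN, hu⟩ := hu
    have hv : ((c : F) ^ 2 * ι₀ d) * τ ((c : F) ^ 2 * ι₀ d) = 1 := by
      rw [map_mul, C.fix, map_pow]
      linear_combination ((c : F) * τ c * ι₀ d + 1) * hN
    have hvm : ((((mkU C _ hv : U1 F q) ^ m : U1 F q) : Fˣ) : F) = (c : F) ^ n * ι₀ (d ^ m) := by
      simp only [SubmonoidClass.coe_pow, Units.val_pow_eq_pow_val]
      rw [coe_mkU, mul_pow, ← pow_mul, hc, map_pow]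
    rcases hsign M₀ d hM with h | h
    · have e : u = (mkU C _ hv) ^ m := by
        apply Subtype.ext
        apply Units.ext
        rw [hvm, hu, h]
      rw [e]
      exact Subgroup.mem_sup_left ⟨_, rfl⟩
    · have e : u = (mkU C _ hv) ^ m * negU C := by
        apply Subtype.ext
        apply Units.ext
        show ((u : Fˣ) : F) = (((mkU C _ hv : U1 F q) ^ m : U1 F q) : Fˣ).1 * (-1)
        rw [hvm, hu, h, map_neg]
        ring
      rw [e]
      exact Subgroup.mul_mem _ (Subgroup.mem_sup_left ⟨_, rfl⟩) (Subgroup.mem_sup_right (Subgroup.mem_zpowers _))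
  · refine sup_le ?_ ((Subgroup.zpowers_le).2 hneg)
    rintro _ ⟨v, rfl⟩
    obtain ⟨c, d, hN, hv⟩ := exists_cd C (norm_U1 C v)
    obtain ⟨M₀, hM⟩ := exists_sim_sym h2 hS (gl_det_ne A) ⟨m, by rw [hcard]; ring⟩ d
    have hvm : ((v : Fˣ) : F) ^ m = (c : F) ^ n * ι₀ ((d : F₀) ^ m) := by
      rw [← hv, mul_pow, ← pow_mul, hc, map_pow]
    rw [powMonoidHom_apply]
    rcases hsign M₀ d hM with h | h
    · rw [mem_DU C hn R]
      refine ⟨M₀, d, c, d.ne_zero, hM, hN, ?_⟩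
      rw [h]
      simpa using hvm
    · have hmem : v ^ m * negU C ∈ ((Subgroup.centralizer {Th C.hF n g (R.mem C) τ}).comap (piG C.hF n)).map (detU C.hF n) := by
        rw [mem_DU C hn R]
        refine ⟨M₀, d, c, d.ne_zero, hM, hN, ?_⟩
        rw [h, map_neg, mul_neg, ← hvm]
        show (((v ^ m : U1 F q)) : Fˣ).1 * (-1) = _
        simp
      have e : v ^ m = (v ^ m * negU C) * negU C := by
        apply Subtype.ext
        apply Units.ext
        show (((v ^ m : U1 F q)) : Fˣ).1 = (((v ^ m : U1 F q)) : Fˣ).1 * (-1) * (-1)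
        ring
      rw [e]
      exact Subgroup.mul_mem _ hmem hneg

/-- **The class count.** -/
theorem main [Fintype F₀] (hn : 3 ≤ n) (hF₀ : Fintype.card F₀ = q) :
    ((Even n ∧ Odd q ∧ Nonempty (↥(Cfsg.inndiagPSU n F q ⊓ Subgroup.centralizer {Th C.hF n g (R.mem C) τ}) ≃* Cfsg.PGSp (n / 2) F₀)) →
      Cfsg.splitClassCount (Cfsg.inndiagPSU n F q) (Cfsg.Inn (Cfsg.PSU n F q)) (Th C.hF n g (R.mem C) τ) = Nat.gcd (n / 2) (q + 1)) ∧
    ((Even n ∧ Odd q ∧ ¬ Nonempty (↥(Cfsg.inndiagPSU n F q ⊓ Subgroup.centralizer {Th C.hF n g (R.mem C) τ}) ≃* Cfsg.PGSp (n / 2) F₀)) →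
      Cfsg.splitClassCount (Cfsg.inndiagPSU n F q) (Cfsg.Inn (Cfsg.PSU n F q)) (Th C.hF n g (R.mem C) τ) = Nat.gcd n (q + 1) / 2) ∧
    (¬ (Even n ∧ Odd q) →
      Cfsg.splitClassCount (Cfsg.inndiagPSU n F q) (Cfsg.Inn (Cfsg.PSU n F q)) (Th C.hF n g (R.mem C) τ) = Nat.gcd n (q + 1)) := by
  classical
  have hF := C.hF
  have hcount : Cfsg.splitClassCount (Cfsg.inndiagPSU n F q) (Cfsg.Inn (Cfsg.PSU n F q)) (Th hF n g (R.mem C) τ) =
      (((Subgroup.centralizer {Th hF n g (R.mem C) τ}).comap (piG hF n)).map (detU hF n)).index := by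
    rw [count_eq hF n (by omega)]
    rfl
  have hcard : Nat.card (U1 F q) = q + 1 := Cfsg.Agent.Lib.AutCl.PSUCount.card_U1 hF
  haveI hcU : IsCyclic (U1 F q) := inferInstance
  rw [hcount]
  have hι2 : (2 : F₀) ≠ 0 → (2 : F) ≠ 0 := by
    intro h2 h3
    apply h2
    apply ι₀.injective
    rw [map_ofNat, h3, map_zero]
  by_cases hc : Even n ∧ Odd q
  · obtain ⟨hev, hqo⟩ := hc
    have h2 : (2 : F₀) ≠ 0 := two_ne_of_odd (by rw [hF₀]; exact hqo)
    obtain ⟨m, hm⟩ := hev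
    have hm' : n = 2 * m := by omega
    have hm2 : n / 2 = m := by omega
    have hcardn : Fintype.card (Fin n) = 2 * m := by simp [hm']
    have hE : Eps A := by
      have hT := R.aT C
      rcases R.hε with rfl | rfl
      · refine ⟨1, Or.inl rfl, ?_⟩
        rw [one_smul] at hT ⊢
        ext i j
        exact ι₀.injective (congrFun (congrFun hT i) j)
      · refine ⟨-1, Or.inr rfl, ?_⟩
        ext i j
        apply ι₀.injective
        have h3 := congrFun (congrFun hT i) j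
        simpa using h3
    obtain ⟨ε₀, hε₀, hAε⟩ := hE
    rw [hm2]
    rcases hε₀ with rfl | rfl
    · -- symmetric
      rw [one_smul] at hAε
      obtain ⟨t, rfl⟩ : ∃ t, m = t + 1 := ⟨m - 1, by omega⟩
      have hnot : ¬ Nonempty (↥(Cfsg.inndiagPSU n F q ⊓ Subgroup.centralizer {Th hF n g (R.mem C) τ}) ≃* Cfsg.PGSp (t + 1) F₀) := by
        rintro ⟨e⟩
        obtain ⟨e1⟩ := cent_iso C hn R
        exact not_iso_of_symm h2 hAε (gl_det_ne A) hcardn ⟨e1.symm.trans e⟩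
      refine ⟨fun h => absurd h.2.2 hnot, fun _ => ?_, fun h => absurd ⟨⟨t + 1, by omega⟩, hqo⟩ h⟩
      have hneg : orderOf (negU C) = 2 := by
        refine orderOf_eq_prime ?_ ?_
        · apply Subtype.ext
          apply Units.ext
          show (-1 : F) ^ 2 = 1
          simp
        · intro h
          have h3 := congrArg (fun z : U1 F q => ((z : Fˣ) : F)) h
          have h4 : (-1 : F) = 1 := h3
          apply hι2 h2
          linear_combination -h4
      rw [DU_sym C R h2 hn hAε hm', index_sup_inv _ hneg, hcard, hm']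
    · -- alternating
      rw [neg_smul, one_smul] at hAε
      have halt := alt_of_skew h2 hAε
      have hyes : Nonempty (↥(Cfsg.inndiagPSU n F q ⊓ Subgroup.centralizer {Th hF n g (R.mem C) τ}) ≃* Cfsg.PGSp m F₀) := by
        obtain ⟨e1⟩ := cent_iso C hn R
        obtain ⟨e2⟩ := Cong.proj (cong_J halt (gl_det_ne A) hcardn)
        obtain ⟨e3⟩ := proj_J (F := F₀) m
        exact ⟨e1.trans (e2.trans e3)⟩
      refine ⟨fun _ => ?_, fun h => absurd hyes h.2.2, fun h => absurd ⟨⟨m, by omega⟩, hqo⟩ h⟩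
      rw [DU_alt C R hn halt hm', IsCyclic.index_powMonoidHom_range, hcard, Nat.gcd_comm]
  · refine ⟨fun h => absurd ⟨h.1, h.2.1⟩ hc, fun h => absurd ⟨h.1, h.2.1⟩ hc, fun _ => ?_⟩
    have hc' : Odd n ∨ (2 : F₀) = 0 := by
      by_cases hn2 : Even n
      · right
        have hq2 : ¬ Odd q := fun h => hc ⟨hn2, h⟩
        by_contra h2
        apply hq2
        rw [← hF₀]
        refine Nat.odd_iff.2 (FiniteField.odd_card_of_char_ne_two ?_)
        intro h3
        apply h2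
        have := ringChar.Nat.cast_ringChar (R := F₀)
        rw [h3] at this
        exact_mod_cast this
      · left
        exact Nat.not_even_iff_odd.1 hn2
    rw [DU_range C R hn hc', IsCyclic.index_powMonoidHom_range, hcard, Nat.gcd_comm]

end Cfsg.Agent.Lib.GraphInv.PSUCount
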